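import Cfsg.Agent.Lib.Helper36.Hecke.Defs

/-!
# A linear algebra lemma for the assembly
-/

set_option autoImplicit false

namespace Cfsg.Agent.Lib.Helper36.Hecke

open Module

theorem la_lemma {V A : Type*} [AddCommGroup V] [Module ℂ V] [FiniteDimensional ℂ V] [AddCommGroup A] [Module ℂ A]
    (Θ : V →ₗ[ℂ] A) (hΘ : Function.Injective Θ) (C : V →ₗ[ℂ] V) (Z : Submodule ℂ V) (ZZ : Submodule ℂ A)
    (ha : ∀ c, Θ (C c) ∈ ZZ) (hb : ZZ ≤ Z.map Θ) (hc : ∀ c ∈ Z, C c = 0 → c = 0) :
    finrank ℂ (LinearMap.range C) = finrank ℂ Z ∧ finrank ℂ ZZ = finrank ℂ Z := by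
  haveI : FiniteDimensional ℂ (Z.map Θ) := inferInstance
  haveI : FiniteDimensional ℂ ZZ := Submodule.finiteDimensional_of_le hb
  have h1 : finrank ℂ Z ≤ finrank ℂ (LinearMap.range C) := by
    let f : Z →ₗ[ℂ] LinearMap.range C := (C.domRestrict Z).codRestrict _ (fun c => ⟨c, rfl⟩)
    apply LinearMap.finrank_le_finrank_of_injective (f := f)
    rw [← LinearMap.ker_eq_bot, LinearMap.ker_eq_bot']
    intro c hc0
    have : C c = 0 := congrArg Subtype.val hc0
    exact Subtype.ext (hc c c.2 this)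
  have h2 : finrank ℂ (LinearMap.range C) ≤ finrank ℂ ZZ := by
    let f : LinearMap.range C →ₗ[ℂ] ZZ := (Θ.domRestrict _).codRestrict _ (fun c => by
      obtain ⟨d, hd⟩ := c.2
      show Θ (c : V) ∈ ZZ
      rw [← hd]
      exact ha d)
    apply LinearMap.finrank_le_finrank_of_injective (f := f)
    intro c d hcd
    have : Θ (c : V) = Θ (d : V) := congrArg Subtype.val hcd
    exact Subtype.ext (hΘ this)
  have h3 : finrank ℂ ZZ ≤ finrank ℂ Z :=
    (Submodule.finrank_mono hb).trans (Submodule.finrank_map_le Θ Z)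
  omega

end Cfsg.Agent.Lib.Helper36.Hecke
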