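import Cfsg.Agent.Lib.Helper36.Hecke.Defs
import Cfsg.Agent.Lib.Helper18.BNCount

/-!
# Piece BN : a (B,N)-pair gives a Bruhat map
-/

set_option autoImplicit false

namespace Cfsg.Agent.Lib.Helper36.Hecke

open Cfsg Cfsg.Agent.Lib.Helper6.BN Cfsg.Agent.Lib.Helper18

variable {ι : Type*} {M : CoxeterMatrix ι} {W : Type*} [Group W] (cs : CoxeterSystem M W)

theorem pi_eq_iff {G : Type*} [Group G] (P : Cfsg.BNPair G) (π : ↥P.N →* W)
    (hker : ∀ n : ↥P.N, π n = 1 ↔ (n : G) ∈ P.B) (a b : ↥P.N) : π a = π b ↔ Rel P (a : G) (b : G) := by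
  have : π a = π b ↔ π (a⁻¹ * b) = 1 := by rw [map_mul, map_inv, inv_mul_eq_one]
  rw [this, hker]
  rfl

theorem word_to_cox {G : Type*} [Group G] (P : Cfsg.BNPair G) (π : ↥P.N →* W)
    (hS : ∀ s (hs : s ∈ P.S), ∃ i, π ⟨s, P.subset hs⟩ = cs.simple i) :
    ∀ L : List G, IsWord P.S L → ∀ hN : L.prod ∈ P.N, ∃ ω : List ι, ω.length = L.length ∧
      π ⟨L.prod, hN⟩ = cs.wordProd ω := by
  intro L
  induction L with
  | nil =>
    intro _ hN
    refine ⟨[], rfl, ?_⟩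
    rw [CoxeterSystem.wordProd_nil]
    exact map_one π
  | cons s L ih =>
    intro hL hN
    obtain ⟨ω, hω, e⟩ := ih hL.tail hL.tail.prod_mem_N
    obtain ⟨i, hi⟩ := hS s hL.head
    refine ⟨i :: ω, by simp [hω], ?_⟩
    rw [CoxeterSystem.wordProd_cons, ← hi, ← e, ← map_mul]
    congr 1

theorem cox_to_word {G : Type*} [Group G] (P : Cfsg.BNPair G) (π : ↥P.N →* W)
    (hS' : ∀ i, ∃ s, ∃ hs : s ∈ P.S, π ⟨s, P.subset hs⟩ = cs.simple i) :
    ∀ ω : List ι, ∃ L : List G, IsWord P.S L ∧ L.length = ω.length ∧ ∀ hN : L.prod ∈ P.N,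
      π ⟨L.prod, hN⟩ = cs.wordProd ω := by
  intro ω
  induction ω with
  | nil =>
    refine ⟨[], IsWord.nil _, rfl, fun hN => ?_⟩
    rw [CoxeterSystem.wordProd_nil]
    exact map_one π
  | cons i ω ih =>
    obtain ⟨L, hL, hl, e⟩ := ih
    obtain ⟨s, hs, hi⟩ := hS' i
    refine ⟨s :: L, hL.cons hs, by simp [hl], fun hN => ?_⟩
    rw [CoxeterSystem.wordProd_cons, ← hi, ← e hL.prod_mem_N, ← map_mul]
    congr 1

theorem length_eq_len {G : Type*} [Group G] (P : Cfsg.BNPair G) (π : ↥P.N →* W)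
    (hker : ∀ n : ↥P.N, π n = 1 ↔ (n : G) ∈ P.B)
    (hS : ∀ s (hs : s ∈ P.S), ∃ i, π ⟨s, P.subset hs⟩ = cs.simple i)
    (hS' : ∀ i, ∃ s, ∃ hs : s ∈ P.S, π ⟨s, P.subset hs⟩ = cs.simple i) (n : ↥P.N) :
    cs.length (π n) = len P (n : G) := by
  apply le_antisymm
  · obtain ⟨L, hL, hr, hk⟩ := exists_word_len n.2
    obtain ⟨ω, hω, e⟩ := word_to_cox cs P π hS L hL hL.prod_mem_N
    have h1 : π ⟨L.prod, hL.prod_mem_N⟩ = π n := (pi_eq_iff P π hker _ _).mpr hr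
    rw [← h1, e, ← hk, ← hω]
    exact cs.length_wordProd_le ω
  · obtain ⟨ω, hω, e⟩ := cs.exists_isReduced (π n)
    obtain ⟨L, hL, hl, e'⟩ := cox_to_word cs P π hS' ω
    have h1 : π ⟨L.prod, hL.prod_mem_N⟩ = π n := by rw [e' hL.prod_mem_N, e]
    have h2 := len_le hL ((pi_eq_iff P π hker _ _).mp h1)
    rw [e, hω.eq, ← hl]
    exact h2

theorem real_of_bn {G : Type*} [Group G] [Finite G] (P : Cfsg.BNPair G) (π : ↥P.N →* W)
    (hπ : Function.Surjective π) (hker : ∀ n : ↥P.N, π n = 1 ↔ (n : G) ∈ P.B)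
    (hS : ∀ s (hs : s ∈ P.S), ∃ i, π ⟨s, P.subset hs⟩ = cs.simple i)
    (hS' : ∀ i, ∃ s, ∃ hs : s ∈ P.S, π ⟨s, P.subset hs⟩ = cs.simple i)
    (q : ℕ) (hq0 : 0 < q) (hq : ∀ s ∈ P.S, Nat.card (dc P s) = q * Nat.card P.B) :
    ∃ δ : G → W, Real cs P.B δ q := by
  classical
  let δ : G → W := fun g => π ⟨(bruhat_exists (P := P) g).choose, (bruhat_exists (P := P) g).choose_spec.1⟩
  have hδ' : ∀ g, ∃ n : ↥P.N, g ∈ dc P (n : G) ∧ δ g = π n := fun g =>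
    ⟨⟨_, (bruhat_exists (P := P) g).choose_spec.1⟩, (bruhat_exists (P := P) g).choose_spec.2, rfl⟩
  have hδ : ∀ g, ∀ n : ↥P.N, g ∈ dc P (n : G) → δ g = π n := by
    intro g n hg
    obtain ⟨n₀, hg₀, e⟩ := hδ' g
    rw [e]
    apply (pi_eq_iff P π hker _ _).mpr
    apply bruhat_unique n₀.2 n.2
    rw [← dc_eq_of_mem hg₀, dc_eq_of_mem hg]
    exact self_mem_dc _
  have hlen := length_eq_len cs P π hker hS hS'
  have hsimple : ∀ i g, δ g = cs.simple i → ∀ s (hs : s ∈ P.S), π ⟨s, P.subset hs⟩ = cs.simple i →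
      g ∈ dc P s := by
    intro i g hg s hs hi
    obtain ⟨n, hgn, e⟩ := hδ' g
    have h1 : π ⟨s, P.subset hs⟩ = π n := by rw [hi, ← e, hg]
    have h2 := (pi_eq_iff P π hker _ _).mp h1
    rw [h2.dc_eq]
    exact hgn
  refine ⟨δ, ?_, ?_, ?_, ?_, ?_, ?_, ?_, hq0⟩
  · intro g g'
    constructor
    · intro h
      obtain ⟨n, hgn, e⟩ := hδ' g
      obtain ⟨n', hgn', e'⟩ := hδ' g'
      have h1 : π n = π n' := by rw [← e, ← e', h]
      have h2 := (pi_eq_iff P π hker _ _).mp h1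
      have h3 : g' ∈ dc P g := by
        rw [dc_eq_of_mem hgn, h2.dc_eq]
        exact hgn'
      exact mem_dc.mp h3
    · rintro ⟨b, hb, b', hb', rfl⟩
      obtain ⟨n, hgn, e⟩ := hδ' g
      rw [e]
      exact (hδ _ n (mul_mem_dc hb hb' hgn)).symm
  · intro w
    obtain ⟨n, rfl⟩ := hπ w
    exact ⟨n, hδ _ n (self_mem_dc _)⟩
  · have := hδ 1 1 (self_mem_dc _)
    rw [this, map_one]
  · intro g
    obtain ⟨n, hgn, e⟩ := hδ' g
    rw [e, ← map_inv]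
    exact hδ _ n⁻¹ (inv_mem_dc hgn)
  · intro i g h hg hlt
    obtain ⟨s, hs, hi⟩ := hS' i
    have hgs := hsimple i g hg s hs hi
    obtain ⟨n, hhn, e⟩ := hδ' h
    rw [e] at hlt ⊢
    have h1 : cs.simple i * π n = π (⟨s, P.subset hs⟩ * n) := by rw [map_mul, hi]
    rw [h1] at hlt ⊢
    rw [hlen, hlen] at hlt
    have hu : Up P s (n : G) := (up_iff hs n.2).mpr hlt
    exact hδ _ _ (mul_mem_dc_of_up hu hgs hhn)
  · intro i g h hg
    obtain ⟨s, hs, hi⟩ := hS' i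
    have hgs := hsimple i g hg s hs hi
    obtain ⟨n, hhn, e⟩ := hδ' h
    obtain ⟨a, ha, b, hb, rfl⟩ := mem_dc.mp hgs
    have h1 : b * h ∈ dc P (n : G) := mul_left_mem_dc hb hhn
    have e1 : a * s * b * h = a * (s * (b * h)) := by group
    rcases T3_dc hs n.2 h1 with h2 | h2
    · left
      rw [e, e1, ← hi, ← map_mul]
      exact hδ _ (⟨s, P.subset hs⟩ * n) (mul_left_mem_dc ha h2)
    · right
      rw [e, e1]
      exact hδ _ n (mul_left_mem_dc ha h2)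
  · intro i
    obtain ⟨s, hs, hi⟩ := hS' i
    rw [← hq s hs]
    apply Nat.card_congr
    refine Equiv.subtypeEquivRight (fun g => ?_)
    constructor
    · intro hg
      exact hsimple i g hg s hs hi
    · intro hg
      rw [← hi]
      exact hδ g ⟨s, P.subset hs⟩ hg

end Cfsg.Agent.Lib.Helper36.Hecke
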