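import Cfsg.Agent.Lib.Helper36.Hecke.Defs

set_option autoImplicit false

/-! # Hecke farm, piece E1: the matrices evaluate to the operators -/

namespace Cfsg.Agent.Lib.Helper36.Hecke

open Polynomial

variable {ι : Type*} {M : CoxeterMatrix ι} {W : Type*} [Group W] (cs : CoxeterSystem M W)

theorem mulVec_Lm [Fintype W] [DecidableEq W] (u : ℂ) (i : ι) (c : W → ℂ) :
    ((Lm cs i).map (eval u)).mulVec c = Lop cs u i c := by
  funext v
  simp only [Matrix.mulVec, dotProduct, Matrix.map_apply, Lm, Lop]
  split_ifs with h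
  · simp [add_mul, Finset.sum_add_distrib, apply_ite (eval u)]
  · simp [apply_ite (eval u)]

theorem mulVec_Rm [Fintype W] [DecidableEq W] (u : ℂ) (i : ι) (c : W → ℂ) :
    ((Rm cs i).map (eval u)).mulVec c = Rop cs u i c := by
  funext v
  simp only [Matrix.mulVec, dotProduct, Matrix.map_apply, Rm, Rop]
  split_ifs with h
  · simp [add_mul, Finset.sum_add_distrib, apply_ite (eval u)]
  · simp [apply_ite (eval u)]

end Cfsg.Agent.Lib.Helper36.Hecke
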