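import Cfsg.Agent.Lib.Helper36.Hecke.Defs

set_option autoImplicit false

/-! # Hecke farm, piece E2: the operators are the multiplications by `T_i` -/

namespace Cfsg.Agent.Lib.Helper36.Hecke

open Polynomial

variable {ι : Type*} {M : CoxeterMatrix ι} {W : Type*} [Group W] {cs : CoxeterSystem M W}
variable {A : Type*} [Ring A] [Algebra ℂ A] {T : W → A} {u : ℂ}

namespace E2

theorem left_down (h : Fam cs T u) (i : ι) (w : W)
    (hw : cs.length (cs.simple i * w) < cs.length w) :
    T (cs.simple i) * T w = u • T (cs.simple i * w) + (u - 1) • T w := by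
  have e : cs.simple i * (cs.simple i * w) = w := cs.simple_mul_simple_cancel_left i
  have h1 : T (cs.simple i) * T (cs.simple i * w) = T w := by
    have := h.left_up i (cs.simple i * w) (by rw [e]; exact hw)
    rwa [e] at this
  calc T (cs.simple i) * T w = T (cs.simple i) * (T (cs.simple i) * T (cs.simple i * w)) := by
        rw [h1]
    _ = (T (cs.simple i) * T (cs.simple i)) * T (cs.simple i * w) := by rw [mul_assoc]
    _ = u • T (cs.simple i * w) + (u - 1) • T w := by
        rw [h.sq, add_mul, smul_mul_assoc, smul_mul_assoc, h.one_mul, h1]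

theorem right_down (h : Fam cs T u) (i : ι) (w : W)
    (hw : cs.length (w * cs.simple i) < cs.length w) :
    T w * T (cs.simple i) = u • T (w * cs.simple i) + (u - 1) • T w := by
  have e : w * cs.simple i * cs.simple i = w := cs.simple_mul_simple_cancel_right i
  have h1 : T (w * cs.simple i) * T (cs.simple i) = T w := by
    have := h.right_up i (w * cs.simple i) (by rw [e]; exact hw)
    rwa [e] at this
  calc T w * T (cs.simple i) = (T (w * cs.simple i) * T (cs.simple i)) * T (cs.simple i) := by
        rw [h1]
    _ = T (w * cs.simple i) * (T (cs.simple i) * T (cs.simple i)) := by rw [mul_assoc]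
    _ = u • T (w * cs.simple i) + (u - 1) • T w := by
        rw [h.sq, mul_add, mul_smul_comm, mul_smul_comm, h.mul_one, h1]

end E2

open E2

theorem Th_Lop [Fintype W] (h : Fam cs T u) (i : ι) (c : W → ℂ) :
    Th T (Lop cs u i c) = T (cs.simple i) * Th T c := by
  classical
  set s := cs.simple i with hs
  have hss : ∀ w, s * (s * w) = w := fun w => cs.simple_mul_simple_cancel_left i
  have hlen : ∀ w, cs.length (s * w) = cs.length w + 1 ∨ cs.length (s * w) + 1 = cs.length w :=
    fun w => cs.length_simple_mul w i
  let a : W → A := fun w => (if cs.length (s * w) < cs.length w then c w * u else c w) • T (s * w)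
  let b : W → A := fun w => (if cs.length (s * w) < cs.length w then (u - 1) * c w else 0) • T w
  have h1 : ∀ v, Lop cs u i c v • T v = a (s * v) + b v := by
    intro v
    simp only [Lop, a, b, hss, ← hs]
    by_cases hv : cs.length (s * v) < cs.length v
    · rw [if_pos hv, if_pos hv, if_neg (by omega), add_smul]
    · have : cs.length v < cs.length (s * v) := by rcases hlen v with h | h <;> omega
      rw [if_neg hv, if_neg hv, if_pos this, zero_smul, add_zero, mul_comm]
  have h2 : ∀ w, c w • (T s * T w) = a w + b w := by
    intro w
    simp only [a, b]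
    by_cases hw : cs.length (s * w) < cs.length w
    · rw [if_pos hw, if_pos hw, left_down h i w hw, smul_add, smul_smul, smul_smul,
        mul_comm (c w) (u - 1)]
    · have : cs.length w < cs.length (s * w) := by rcases hlen w with h | h <;> omega
      rw [if_neg hw, if_neg hw, zero_smul, add_zero, h.left_up i w this]
  calc Th T (Lop cs u i c) = ∑ v, (a (s * v) + b v) := Finset.sum_congr rfl fun v _ => h1 v
    _ = ∑ v, a (s * v) + ∑ v, b v := Finset.sum_add_distrib
    _ = ∑ w, a w + ∑ v, b v := by
        have := Equiv.sum_comp (Equiv.mulLeft s) a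
        simp only [Equiv.coe_mulLeft] at this
        rw [this]
    _ = ∑ w, (a w + b w) := Finset.sum_add_distrib.symm
    _ = ∑ w, c w • (T s * T w) := Finset.sum_congr rfl fun w _ => (h2 w).symm
    _ = T s * Th T c := by
        rw [Th, Finset.mul_sum]
        exact Finset.sum_congr rfl fun w _ => (mul_smul_comm _ _ _).symm

theorem Th_Rop [Fintype W] (h : Fam cs T u) (i : ι) (c : W → ℂ) :
    Th T (Rop cs u i c) = Th T c * T (cs.simple i) := by
  classical
  set s := cs.simple i with hs
  have hss : ∀ w, w * s * s = w := fun w => cs.simple_mul_simple_cancel_right i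
  have hlen : ∀ w, cs.length (w * s) = cs.length w + 1 ∨ cs.length (w * s) + 1 = cs.length w :=
    fun w => cs.length_mul_simple w i
  let a : W → A := fun w => (if cs.length (w * s) < cs.length w then c w * u else c w) • T (w * s)
  let b : W → A := fun w => (if cs.length (w * s) < cs.length w then (u - 1) * c w else 0) • T w
  have h1 : ∀ v, Rop cs u i c v • T v = a (v * s) + b v := by
    intro v
    simp only [Rop, a, b, hss, ← hs]
    by_cases hv : cs.length (v * s) < cs.length v
    · rw [if_pos hv, if_pos hv, if_neg (by omega), add_smul]
    · have : cs.length v < cs.length (v * s) := by rcases hlen v with h | h <;> omega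
      rw [if_neg hv, if_neg hv, if_pos this, zero_smul, add_zero, mul_comm]
  have h2 : ∀ w, c w • (T w * T s) = a w + b w := by
    intro w
    simp only [a, b]
    by_cases hw : cs.length (w * s) < cs.length w
    · rw [if_pos hw, if_pos hw, right_down h i w hw, smul_add, smul_smul, smul_smul,
        mul_comm (c w) (u - 1)]
    · have : cs.length w < cs.length (w * s) := by rcases hlen w with h | h <;> omega
      rw [if_neg hw, if_neg hw, zero_smul, add_zero, h.right_up i w this]
  calc Th T (Rop cs u i c) = ∑ v, (a (v * s) + b v) := Finset.sum_congr rfl fun v _ => h1 v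
    _ = ∑ v, a (v * s) + ∑ v, b v := Finset.sum_add_distrib
    _ = ∑ w, a w + ∑ v, b v := by
        have := Equiv.sum_comp (Equiv.mulRight s) a
        simp only [Equiv.coe_mulRight] at this
        rw [this]
    _ = ∑ w, (a w + b w) := Finset.sum_add_distrib.symm
    _ = ∑ w, c w • (T w * T s) := Finset.sum_congr rfl fun w _ => (h2 w).symm
    _ = Th T c * T s := by
        rw [Th, Finset.sum_mul]
        exact Finset.sum_congr rfl fun w _ => (smul_mul_assoc _ _ _).symm

end Cfsg.Agent.Lib.Helper36.Hecke
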