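import Cfsg.Agent.Lib.Helper36.Hecke.Defs

set_option autoImplicit false

/-! # Hecke farm, piece E3: reduced words -/

namespace Cfsg.Agent.Lib.Helper36.Hecke

open Polynomial

variable {ι : Type*} {M : CoxeterMatrix ι} {W : Type*} [Group W] {cs : CoxeterSystem M W}
variable {A : Type*} [Ring A] [Algebra ℂ A] {T : W → A} {u : ℂ}

theorem prod_mul_T_one (h : Fam cs T u) {ω : List ι} (hω : cs.IsReduced ω) :
    (ω.map fun i => T (cs.simple i)).prod * T 1 = T (cs.wordProd ω) := by
  induction ω with
  | nil => simp
  | cons i ω ih =>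
    have hω' : cs.IsReduced ω := by
      have := hω.drop 1
      simpa using this
    rw [List.map_cons, List.prod_cons, mul_assoc, ih hω', cs.wordProd_cons]
    apply h.left_up
    have h1 : cs.length (cs.wordProd (i :: ω)) = (i :: ω).length := hω
    have h2 : cs.length (cs.wordProd ω) = ω.length := hω'
    rw [cs.wordProd_cons] at h1
    rw [h1, h2, List.length_cons]
    omega

theorem T_one_mul_prod (h : Fam cs T u) {ω : List ι} (hω : cs.IsReduced ω) :
    T 1 * (ω.map fun i => T (cs.simple i)).prod = T (cs.wordProd ω) := by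
  rw [← prod_mul_T_one h hω]
  apply Commute.list_prod_right
  intro x hx
  obtain ⟨i, _, rfl⟩ := List.mem_map.1 hx
  show T 1 * T (cs.simple i) = T (cs.simple i) * T 1
  rw [h.one_mul, h.mul_one]

end Cfsg.Agent.Lib.Helper36.Hecke
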