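import Cfsg.Agent.Lib.Helper36.Hecke.E1
import Cfsg.Agent.Lib.Helper36.Hecke.E2
import Cfsg.Agent.Lib.Helper36.Hecke.E3

set_option autoImplicit false
set_option linter.unusedSectionVars false

/-! # Hecke farm, piece E4: the Casimir matrix -/

namespace Cfsg.Agent.Lib.Helper36.Hecke

open Polynomial

variable {ι : Type*} {M : CoxeterMatrix ι} {W : Type*} [Group W] {cs : CoxeterSystem M W}
variable {A : Type*} [Ring A] [Algebra ℂ A] {T : W → A} {u : ℂ}

namespace E4

theorem Th_smul [Fintype W] (a : ℂ) (c : W → ℂ) : Th T (a • c) = a • Th T c := by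
  simp only [Th, Pi.smul_apply, smul_eq_mul, mul_smul, Finset.smul_sum]

theorem Th_sum [Fintype W] {κ : Type*} (s : Finset κ) (c : κ → W → ℂ) :
    Th T (∑ k ∈ s, c k) = ∑ k ∈ s, Th T (c k) := by
  simp only [Th, Finset.sum_apply, Finset.sum_smul]
  exact Finset.sum_comm

theorem one_mul_Th [Fintype W] (h : Fam cs T u) (c : W → ℂ) : T 1 * Th T c = Th T c := by
  rw [Th, Finset.mul_sum]
  exact Finset.sum_congr rfl fun w _ => by rw [mul_smul_comm, h.one_mul]

theorem Th_mul_one [Fintype W] (h : Fam cs T u) (c : W → ℂ) : Th T c * T 1 = Th T c := by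
  rw [Th, Finset.sum_mul]
  exact Finset.sum_congr rfl fun w _ => by rw [smul_mul_assoc, h.mul_one]

theorem Th_prodL [Fintype W] [DecidableEq W] (h : Fam cs T u) (ω : List ι) (d : W → ℂ) :
    Th T (((ω.map fun i => (Lm cs i).map (eval u)).prod).mulVec d) =
      (ω.map fun i => T (cs.simple i)).prod * Th T d := by
  induction ω with
  | nil => simp
  | cons i ω ih =>
    rw [List.map_cons, List.prod_cons, List.map_cons, List.prod_cons, ← Matrix.mulVec_mulVec,
      mulVec_Lm, Th_Lop h, ih, mul_assoc]

theorem Th_prodR [Fintype W] [DecidableEq W] (h : Fam cs T u) (ω : List ι) (d : W → ℂ) :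
    Th T (((ω.map fun i => (Rm cs i).map (eval u)).prod).mulVec d) =
      Th T d * (ω.reverse.map fun i => T (cs.simple i)).prod := by
  induction ω with
  | nil => simp
  | cons i ω ih =>
    rw [List.map_cons, List.prod_cons, ← Matrix.mulVec_mulVec, mulVec_Rm, Th_Rop h, ih,
      List.reverse_cons, List.map_append, List.prod_append, mul_assoc]
    simp

theorem map_listProd [Fintype W] [DecidableEq W] (f : ι → Matrix W W ℂ[X]) (ω : List ι) :
    ((ω.map f).prod).map (eval u) = (ω.map fun i => (f i).map (eval u)).prod := by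
  have h := map_list_prod (evalRingHom u).mapMatrix (ω.map f)
  rw [List.map_map] at h
  exact h

end E4

open E4

theorem Th_Cm [Fintype W] [DecidableEq W] (h : Fam cs T u) (c : W → ℂ) :
    Th T (((Cm cs).map (eval u)).mulVec c) =
      ∑ w : W, u ^ (NN cs - cs.length w) • (T w * Th T c * T w⁻¹) := by
  have hmap : (Cm cs).map (eval u) = ∑ w : W, u ^ (NN cs - cs.length w) •
      (((red cs w).map fun i => (Lm cs i).map (eval u)).prod *
        ((red cs w).map fun i => (Rm cs i).map (eval u)).prod) := by
    have h1 := map_sum (evalRingHom u).mapMatrix (fun w : W => (X : ℂ[X]) ^ (NN cs - cs.length w) •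
      (((red cs w).map (Lm cs)).prod * ((red cs w).map (Rm cs)).prod)) Finset.univ
    have h2 : (Cm cs).map (eval u) = (evalRingHom u).mapMatrix (Cm cs) := rfl
    rw [h2, Cm, h1]
    refine Finset.sum_congr rfl fun w _ => ?_
    rw [RingHom.mapMatrix_apply, coe_evalRingHom,
      Matrix.map_smul' _ _ _ (fun a b => eval_mul), eval_pow, eval_X]
    congr 1
    have h3 := Matrix.map_mul (L := ((red cs w).map (Lm cs)).prod)
      (M := ((red cs w).map (Rm cs)).prod) (f := evalRingHom u)
    rw [coe_evalRingHom] at h3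
    rw [h3, map_listProd, map_listProd]
  rw [hmap, Matrix.sum_mulVec, Th_sum]
  refine Finset.sum_congr rfl fun w _ => ?_
  rw [Matrix.smul_mulVec, Th_smul, ← Matrix.mulVec_mulVec, Th_prodL h, Th_prodR h]
  congr 1
  have hr := red_isReduced cs w
  have e1 := prod_mul_T_one h hr
  have e2 := T_one_mul_prod h hr.reverse
  rw [wordProd_red] at e1
  rw [cs.wordProd_reverse, wordProd_red] at e2
  rw [← e1, ← e2]
  calc _ = ((red cs w).map fun i => T (cs.simple i)).prod * (Th T c) *
        ((red cs w).reverse.map fun i => T (cs.simple i)).prod := by rw [mul_assoc]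
    _ = ((red cs w).map fun i => T (cs.simple i)).prod * (T 1 * Th T c * T 1) *
        ((red cs w).reverse.map fun i => T (cs.simple i)).prod := by
        rw [one_mul_Th h, Th_mul_one h]
    _ = _ := by simp only [mul_assoc]

end Cfsg.Agent.Lib.Helper36.Hecke
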