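import Cfsg.Agent.Lib.Helper36.Hecke.E1
import Cfsg.Agent.Lib.Helper36.Hecke.E2

set_option autoImplicit false

/-! # Hecke farm, piece E5: the kernel of the commutator matrix -/

namespace Cfsg.Agent.Lib.Helper36.Hecke

open Polynomial

variable {ι : Type*} {M : CoxeterMatrix ι} {W : Type*} [Group W] {cs : CoxeterSystem M W}
variable {A : Type*} [Ring A] [Algebra ℂ A] {T : W → A} {u : ℂ}

namespace E5

theorem Th_injective [Fintype W] (hT : LinearIndependent ℂ T) {c d : W → ℂ}
    (h : Th T c = Th T d) : c = d := by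
  have h1 : ∑ w, (c w - d w) • T w = 0 := by
    simp only [sub_smul, Finset.sum_sub_distrib]
    exact sub_eq_zero.2 h
  funext w
  exact sub_eq_zero.1 (Fintype.linearIndependent_iff.1 hT _ h1 w)

theorem Km_mulVec [Fintype W] [DecidableEq W] (c : W → ℂ) (i : ι) (v : W) :
    ((Km cs).map (eval u)).mulVec c (i, v) = Lop cs u i c v - Rop cs u i c v := by
  rw [← mulVec_Lm, ← mulVec_Rm]
  simp only [Matrix.mulVec, dotProduct, Matrix.map_apply, Km, eval_sub, sub_mul,
    Finset.sum_sub_distrib]

end E5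

open E5

theorem Km_mulVec_eq_zero_iff [Fintype W] [DecidableEq W] (h : Fam cs T u) (hT : LinearIndependent ℂ T)
    (c : W → ℂ) :
    ((Km cs).map (eval u)).mulVec c = 0 ↔ ∀ i, T (cs.simple i) * Th T c = Th T c * T (cs.simple i) := by
  constructor
  · intro h0 i
    rw [← Th_Lop h, ← Th_Rop h]
    congr 1
    funext v
    have := congrFun h0 (i, v)
    rw [Km_mulVec] at this
    exact sub_eq_zero.1 this
  · intro h0
    funext ⟨i, v⟩
    rw [Km_mulVec]
    have h1 := h0 i
    rw [← Th_Lop h, ← Th_Rop h] at h1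
    rw [Th_injective hT h1]
    simp

end Cfsg.Agent.Lib.Helper36.Hecke
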