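import Cfsg.Agent.Lib.Helper36.Hecke.G1b

set_option autoImplicit false
set_option linter.unusedSectionVars false

namespace Cfsg.Agent.Lib.Helper36.Hecke

open Polynomial G1b

variable {ι : Type*} {M : CoxeterMatrix ι} {W : Type*} [Group W] {cs : CoxeterSystem M W}
variable {G : Type*} [Group G] [Fintype G] [DecidableEq W] {Bs : Subgroup G} {δ : G → W} {q : ℕ}

/-! ## Piece G1a : `T_1` is a unit for the `T_w` -/

theorem count_one_left (h : Real cs Bs δ q) (w : W) (x : G) :
    Nat.card {g : G // δ g = 1 ∧ δ (g⁻¹ * x) = w} = if δ x = w then Nat.card Bs else 0 := by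
  by_cases hx : δ x = w
  · rw [if_pos hx]
    apply Nat.card_congr
    refine Equiv.subtypeEquivRight (fun g => ?_)
    constructor
    · intro hg
      exact (delta_eq_one_iff h g).mp hg.1
    · intro hg
      exact ⟨(delta_eq_one_iff h g).mpr hg, by rw [delta_mul_left h _ (Bs.inv_mem hg), hx]⟩
  · rw [if_neg hx, Nat.card_eq_zero]
    left
    refine ⟨fun g => hx ?_⟩
    have hg := (delta_eq_one_iff h g.1).mp g.2.1
    rw [← g.2.2, delta_mul_left h _ (Bs.inv_mem hg)]

theorem count_one_right (h : Real cs Bs δ q) (w : W) (x : G) :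
    Nat.card {g : G // δ g = w ∧ δ (g⁻¹ * x) = 1} = if δ x = w then Nat.card Bs else 0 := by
  by_cases hx : δ x = w
  · rw [if_pos hx]
    symm
    refine Nat.card_congr
      { toFun := fun c => ⟨x * c, ?_, ?_⟩
        invFun := fun g => ⟨x⁻¹ * g, ?_⟩
        left_inv := ?_
        right_inv := ?_ }
    · rw [delta_mul_right h _ c.2, hx]
    · rw [delta_eq_one_iff h]
      have : (x * (c : G))⁻¹ * x = (c : G)⁻¹ := by group
      rw [this]
      exact Bs.inv_mem c.2
    · have := Bs.inv_mem ((delta_eq_one_iff h _).mp g.2.2)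
      simpa using this
    · intro c
      ext
      simp
    · intro g
      ext
      simp
  · rw [if_neg hx, Nat.card_eq_zero]
    left
    refine ⟨fun g => hx ?_⟩
    have hg := (delta_eq_one_iff h _).mp g.2.2
    have e : x = g.1 * (g.1⁻¹ * x) := by group
    rw [e, delta_mul_right h _ hg, g.2.1]

theorem TT_one_mul (h : Real cs Bs δ q) (w : W) : TT Bs δ 1 * TT Bs δ w = TT Bs δ w := by
  have key : U δ 1 * U δ w = (Nat.card Bs : ℂ) • U δ w := by
    apply MonoidAlgebra.ext
    ext x
    rw [U_mul_U_coeff, count_one_left h w, MonoidAlgebra.coeff_smul_apply, U_coeff]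
    by_cases hx : δ x = w <;> simp [hx]
  rw [TT_eq, TT_eq, smul_mul_smul_comm, key, smul_smul]
  congr 1
  have := card_ne_zero Bs
  field_simp

theorem TT_mul_one (h : Real cs Bs δ q) (w : W) : TT Bs δ w * TT Bs δ 1 = TT Bs δ w := by
  have key : U δ w * U δ 1 = (Nat.card Bs : ℂ) • U δ w := by
    apply MonoidAlgebra.ext
    ext x
    rw [U_mul_U_coeff, count_one_right h w, MonoidAlgebra.coeff_smul_apply, U_coeff]
    by_cases hx : δ x = w <;> simp [hx]
  rw [TT_eq, TT_eq, smul_mul_smul_comm, key, smul_smul]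
  congr 1
  have := card_ne_zero Bs
  field_simp

end Cfsg.Agent.Lib.Helper36.Hecke
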