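import Cfsg.Agent.Lib.Helper36.Hecke.G1b

set_option autoImplicit false
set_option linter.unusedSectionVars false

namespace Cfsg.Agent.Lib.Helper36.Hecke

open Polynomial

variable {ι : Type*} {M : CoxeterMatrix ι} {W : Type*} [Group W] {cs : CoxeterSystem M W}
variable {G : Type*} [Group G] [Fintype G] [DecidableEq W] {Bs : Subgroup G} {δ : G → W} {q : ℕ}

namespace G1c

open G1b

theorem simple_ne_one (cs : CoxeterSystem M W) (i : ι) : cs.simple i ≠ 1 := by
  intro h
  have h1 := cs.length_simple i
  rw [h, cs.length_one] at h1
  exact zero_ne_one h1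

/-- the count for the quadratic relation -/
theorem count_sq (h : Real cs Bs δ q) (i : ι) (x : G) :
    (Nat.card {g : G // δ g = cs.simple i ∧ δ (g⁻¹ * x) = cs.simple i} : ℂ) =
      (if δ x = 1 then (q : ℂ) * Nat.card Bs else 0) +
        (if δ x = cs.simple i then ((q : ℂ) - 1) * Nat.card Bs else 0) := by
  classical
  have hs1 := simple_ne_one cs i
  by_cases hx1 : δ x = 1
  · have hxs : δ x ≠ cs.simple i := by rw [hx1]; exact hs1.symm
    rw [if_pos hx1, if_neg hxs, add_zero]
    have hxB := (delta_eq_one_iff h x).mp hx1
    have : Nat.card {g : G // δ g = cs.simple i ∧ δ (g⁻¹ * x) = cs.simple i} =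
        Nat.card {g : G // δ g = cs.simple i} := by
      refine Nat.card_congr (Equiv.subtypeEquivRight fun g => ?_)
      constructor
      · exact fun hg => hg.1
      · intro hg
        refine ⟨hg, ?_⟩
        rw [delta_mul_right h _ hxB, h.inv, hg, cs.inv_simple]
    rw [this, h.card i]
    push_cast
    ring
  · rw [if_neg hx1, zero_add]
    by_cases hxs : δ x = cs.simple i
    · rw [if_pos hxs]
      -- the fibre of `s` is the disjoint union of our set and `x B`
      have hsplit : Nat.card {g : G // δ g = cs.simple i} =
          Nat.card {g : G // δ g = cs.simple i ∧ δ (g⁻¹ * x) = cs.simple i} + Nat.card Bs := by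
        have e1 : Nat.card Bs = Nat.card {g : G // δ g = cs.simple i ∧ ¬ δ (g⁻¹ * x) = cs.simple i} := by
          refine Nat.card_congr
            { toFun := fun c => ⟨x * c, ?_, ?_⟩
              invFun := fun g => ⟨x⁻¹ * g, ?_⟩
              left_inv := ?_
              right_inv := ?_ }
          · rw [delta_mul_right h _ c.2, hxs]
          · have : (x * (c : G))⁻¹ * x = (c : G)⁻¹ := by group
            rw [this, (delta_eq_one_iff h _).mpr (Bs.inv_mem c.2)]
            exact hs1.symm
          · obtain ⟨g, hg, hgx⟩ := g
            show x⁻¹ * g ∈ Bs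
            have hginv : δ g⁻¹ = cs.simple i := by rw [h.inv, hg, cs.inv_simple]
            have hk : δ (g⁻¹ * x) = 1 := by
              rcases h.mem i g⁻¹ x hginv with h2 | h2
              · rw [h2, hxs, cs.simple_mul_simple_self]
              · exact absurd (h2.trans hxs) hgx
            have := Bs.inv_mem ((delta_eq_one_iff h _).mp hk)
            simpa using this
          · intro c
            ext
            simp
          · intro g
            ext
            simp
        rw [e1]
        simp only [Nat.card_eq_fintype_card, Fintype.card_subtype]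
        rw [← Finset.card_filter_add_card_filter_not
          (s := Finset.univ.filter fun g : G => δ g = cs.simple i)
          (p := fun g : G => δ (g⁻¹ * x) = cs.simple i)]
        rw [Finset.filter_filter, Finset.filter_filter]
      rw [h.card i] at hsplit
      have h5 : ((q * Nat.card Bs : ℕ) : ℂ) =
          ((Nat.card {g : G // δ g = cs.simple i ∧ δ (g⁻¹ * x) = cs.simple i} + Nat.card Bs : ℕ) : ℂ) := by
        rw [hsplit]
      push_cast at h5
      linear_combination -h5
    · rw [if_neg hxs]
      have : Nat.card {g : G // δ g = cs.simple i ∧ δ (g⁻¹ * x) = cs.simple i} = 0 := by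
        rw [Nat.card_eq_zero]
        left
        constructor
        rintro ⟨g, hg, hgx⟩
        rcases h.mem i g (g⁻¹ * x) hg with h2 | h2
        · rw [mul_inv_cancel_left, hgx, cs.simple_mul_simple_self] at h2
          exact hx1 h2
        · rw [mul_inv_cancel_left, hgx] at h2
          exact hxs h2
      rw [this]
      simp

end G1c

open G1b G1c in
theorem TT_sq (h : Real cs Bs δ q) (i : ι) :
    TT Bs δ (cs.simple i) * TT Bs δ (cs.simple i) =
      (q : ℂ) • TT Bs δ 1 + ((q : ℂ) - 1) • TT Bs δ (cs.simple i) := by
  have key : U δ (cs.simple i) * U δ (cs.simple i) =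
      ((q : ℂ) * Nat.card Bs) • U δ 1 + (((q : ℂ) - 1) * Nat.card Bs) • U δ (cs.simple i) := by
    apply MonoidAlgebra.ext
    ext x
    rw [U_mul_U_coeff, count_sq h i x, MonoidAlgebra.coeff_add, Finsupp.add_apply,
      MonoidAlgebra.coeff_smul_apply, MonoidAlgebra.coeff_smul_apply, U_coeff, U_coeff]
    by_cases hx : δ x = 1 <;> by_cases hx' : δ x = cs.simple i <;> simp [hx, hx']
  rw [TT_eq, TT_eq, smul_mul_smul_comm, key, smul_add, smul_smul, smul_smul, smul_smul, smul_smul]
  have := card_ne_zero Bs
  congr 2 <;> field_simp

end Cfsg.Agent.Lib.Helper36.Hecke
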