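import Cfsg.Agent.Lib.Helper36.Hecke.G1b

set_option autoImplicit false
set_option linter.unusedSectionVars false

namespace Cfsg.Agent.Lib.Helper36.Hecke

open Polynomial

variable {ι : Type*} {M : CoxeterMatrix ι} {W : Type*} [Group W] {cs : CoxeterSystem M W}
variable {G : Type*} [Group G] [Fintype G] [DecidableEq W] {Bs : Subgroup G} {δ : G → W} {q : ℕ}

open G1b in
theorem TT_right_up (h : Real cs Bs δ q)
    (hl : ∀ i w, cs.length w < cs.length (cs.simple i * w) →
      TT Bs δ (cs.simple i) * TT Bs δ w = TT Bs δ (cs.simple i * w))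
    (i : ι) (w : W) (hw : cs.length w < cs.length (w * cs.simple i)) :
    TT Bs δ w * TT Bs δ (cs.simple i) = TT Bs δ (w * cs.simple i) := by
  have hinv : cs.simple i * w⁻¹ = (w * cs.simple i)⁻¹ := by rw [mul_inv_rev, cs.inv_simple]
  have hlen : cs.length w⁻¹ < cs.length (cs.simple i * w⁻¹) := by
    rw [hinv, cs.length_inv, cs.length_inv]; exact hw
  have h1 := hl i w⁻¹ hlen
  apply MonoidAlgebra.ext
  ext x
  have h2 := congrArg (fun a => a.coeff x⁻¹) h1
  have hcard : Nat.card {g : G // δ g = w ∧ δ (g⁻¹ * x) = cs.simple i} =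
      Nat.card {k : G // δ k = cs.simple i ∧ δ (k⁻¹ * x⁻¹) = w⁻¹} := by
    refine Nat.card_congr
      { toFun := fun g => ⟨x⁻¹ * g, ?_, ?_⟩
        invFun := fun k => ⟨x * k, ?_, ?_⟩
        left_inv := ?_
        right_inv := ?_ }
    · have : x⁻¹ * (g : G) = ((g : G)⁻¹ * x)⁻¹ := by group
      rw [this, h.inv, g.2.2, cs.inv_simple]
    · have : (x⁻¹ * (g : G))⁻¹ * x⁻¹ = (g : G)⁻¹ := by group
      rw [this, h.inv, g.2.1]
    · have : x * (k : G) = ((k : G)⁻¹ * x⁻¹)⁻¹ := by group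
      rw [this, h.inv, k.2.2, inv_inv]
    · have : (x * (k : G))⁻¹ * x = (k : G)⁻¹ := by group
      rw [this, h.inv, k.2.1, cs.inv_simple]
    · intro g; ext; simp
    · intro k; ext; simp
  have hiff : (δ x⁻¹ = cs.simple i * w⁻¹) ↔ (δ x = w * cs.simple i) := by
    rw [h.inv, hinv, inv_inj]
  simp only [TT_eq, smul_mul_smul_comm, MonoidAlgebra.coeff_smul_apply, U_mul_U_coeff, U_coeff,
    hiff] at h2 ⊢
  rw [hcard]
  exact h2

end Cfsg.Agent.Lib.Helper36.Hecke
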