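import Cfsg.Agent.Lib.Helper36.Hecke.G1b

set_option autoImplicit false
set_option linter.unusedSectionVars false

namespace Cfsg.Agent.Lib.Helper36.Hecke

open Polynomial G1b

variable {ι : Type*} {M : CoxeterMatrix ι} {W : Type*} [Group W] {cs : CoxeterSystem M W}
variable {G : Type*} [Group G] [Fintype G] [DecidableEq W] {Bs : Subgroup G} {δ : G → W} {q : ℕ}

/-! ## Piece G2 : linear independence -/

theorem linearIndependent_TT (h : Real cs Bs δ q) : LinearIndependent ℂ (TT Bs δ) := by
  classical
  rw [linearIndependent_iff']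
  intro s c hc w hw
  obtain ⟨x, hx⟩ := h.surj w
  have h1 := congrArg (fun a : MonoidAlgebra ℂ G => a.coeff x) hc
  simp only [MonoidAlgebra.coeff_sum, Finsupp.finsetSum_apply, MonoidAlgebra.coeff_smul_apply, TT_eq,
    U_coeff, hx] at h1
  rw [Finset.sum_eq_single w] at h1
  · have := card_ne_zero Bs
    simpa [this] using h1
  · intro v _ hv
    simp [hv.symm]
  · intro hw'
    exact absurd hw hw'

end Cfsg.Agent.Lib.Helper36.Hecke
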