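import Cfsg.Agent.Lib.Helper36.Hecke.G1b

set_option autoImplicit false
set_option linter.unusedSectionVars false

namespace Cfsg.Agent.Lib.Helper36.Hecke

open Polynomial

variable {ι : Type*} {M : CoxeterMatrix ι} {W : Type*} [Group W] {cs : CoxeterSystem M W}
variable {G : Type*} [Group G] [Fintype G] [DecidableEq W] {Bs : Subgroup G} {δ : G → W} {q : ℕ}

open G1b in
theorem card_fiber (h : Real cs Bs δ q) (hF : Fam cs (TT Bs δ) (q : ℂ)) (w : W) :
    Nat.card {g : G // δ g = w} = q ^ cs.length w * Nat.card Bs := by
  classical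
  let ε : MonoidAlgebra ℂ G →ₐ[ℂ] ℂ := MonoidAlgebra.lift ℂ ℂ G (1 : G →* ℂ)
  have hε : ∀ w : W, ε (TT Bs δ w) = (Nat.card Bs : ℂ)⁻¹ * (Nat.card {g : G // δ g = w} : ℂ) := by
    intro w
    rw [TT_eq, map_smul, smul_eq_mul]
    congr 1
    unfold U
    rw [map_sum]
    have : ∀ g : G, ε (if δ g = w then MonoidAlgebra.single g (1 : ℂ) else 0) =
        if δ g = w then 1 else 0 := by
      intro g
      by_cases hg : δ g = w
      · simp only [hg, if_true]
        show MonoidAlgebra.lift ℂ ℂ G (1 : G →* ℂ) (MonoidAlgebra.single g (1 : ℂ)) = 1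
        rw [MonoidAlgebra.lift_single]
        simp
      · simp [hg]
    simp only [this]
    rw [Finset.sum_boole, Nat.card_eq_fintype_card, Fintype.card_subtype]
  have hB := card_ne_zero Bs
  have key : ∀ n : ℕ, ∀ w : W, cs.length w = n → ε (TT Bs δ w) = (q : ℂ) ^ n := by
    intro n
    induction n with
    | zero =>
      intro w hw
      rw [cs.length_eq_zero_iff] at hw
      subst hw
      rw [hε, pow_zero]
      have : Nat.card {g : G // δ g = 1} = Nat.card Bs :=
        Nat.card_congr (Equiv.subtypeEquivRight (delta_eq_one_iff h))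
      rw [this]
      field_simp
    | succ n ih =>
      intro w hw
      have hw1 : w ≠ 1 := by
        intro h1
        rw [h1, cs.length_one] at hw
        omega
      obtain ⟨i, hi⟩ := cs.exists_leftDescent_of_ne_one hw1
      have hi' : cs.length (cs.simple i * w) < cs.length w := hi
      have hlen : cs.length (cs.simple i * w) = n := by
        rcases cs.length_simple_mul w i with h1 | h1 <;> omega
      have hww : cs.simple i * (cs.simple i * w) = w := by
        rw [← mul_assoc, cs.simple_mul_simple_self, one_mul]
      have h3 := hF.left_up i (cs.simple i * w) (by rw [hww]; exact hi')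
      rw [hww] at h3
      rw [← h3, map_mul, ih _ hlen, hε, h.card i]
      push_cast
      field_simp
      ring
  have h4 := key _ w rfl
  rw [hε] at h4
  have h5 : (Nat.card {g : G // δ g = w} : ℂ) = ((q ^ cs.length w * Nat.card Bs : ℕ) : ℂ) := by
    push_cast
    field_simp at h4
    rw [h4]
    ring
  exact_mod_cast h5

end Cfsg.Agent.Lib.Helper36.Hecke
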