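import Cfsg.Agent.Lib.Helper36.Hecke.G1b

set_option autoImplicit false
set_option linter.unusedSectionVars false

namespace Cfsg.Agent.Lib.Helper36.Hecke

open Polynomial

variable {ι : Type*} {M : CoxeterMatrix ι} {W : Type*} [Group W] {cs : CoxeterSystem M W}
variable {G : Type*} [Group G] [Fintype G] [DecidableEq W] {Bs : Subgroup G} {δ : G → W} {q : ℕ}

namespace G4

open G1b

theorem single_mul_U (h : Real cs Bs δ q) {b : G} (hb : b ∈ Bs) (w : W) :
    MonoidAlgebra.single b (1 : ℂ) * U δ w = U δ w := by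
  apply MonoidAlgebra.ext
  ext x
  rw [MonoidAlgebra.coeff_single_mul_apply, U_coeff, U_coeff, delta_mul_left h _ (Bs.inv_mem hb),
    one_mul]

theorem U_mul_single (h : Real cs Bs δ q) {b : G} (hb : b ∈ Bs) (w : W) :
    U δ w * MonoidAlgebra.single b (1 : ℂ) = U δ w := by
  apply MonoidAlgebra.ext
  ext x
  rw [MonoidAlgebra.coeff_mul_single_apply, U_coeff, U_coeff, delta_mul_right h _ (Bs.inv_mem hb),
    mul_one]

theorem card_filter_eq (δ : G → W) (w : W) :
    (Finset.univ.filter fun g : G => δ g = w).card = Nat.card {g : G // δ g = w} := by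
  classical
  rw [Nat.card_eq_fintype_card, Fintype.card_subtype]

theorem card_fiber_one (h : Real cs Bs δ q) : Nat.card {g : G // δ g = 1} = Nat.card Bs :=
  Nat.card_congr (Equiv.subtypeEquivRight fun g => delta_eq_one_iff h g)

/-- sums over a fibre of a constant -/
theorem sum_fiber_const (δ : G → W) (w : W) (X : MonoidAlgebra ℂ G)
    (F : G → MonoidAlgebra ℂ G) (hF : ∀ g, δ g = w → F g = X) :
    ∑ g : G, (if δ g = w then F g else 0) = (Nat.card {g : G // δ g = w} : ℂ) • X := by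
  have : ∀ g : G, (if δ g = w then F g else 0) = if δ g = w then X else 0 := by
    intro g
    by_cases hg : δ g = w
    · simp [hg, hF g hg]
    · simp [hg]
  simp only [this]
  rw [← Finset.sum_filter, Finset.sum_const, card_filter_eq, Nat.cast_smul_eq_nsmul]

theorem U_mul (δ : G → W) (w : W) (X : MonoidAlgebra ℂ G) :
    U δ w * X = ∑ g : G, if δ g = w then MonoidAlgebra.single g (1 : ℂ) * X else 0 := by
  unfold U
  rw [Finset.sum_mul]
  refine Finset.sum_congr rfl fun g _ => ?_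
  by_cases hg : δ g = w <;> simp [hg]

theorem mul_U (δ : G → W) (w : W) (X : MonoidAlgebra ℂ G) :
    X * U δ w = ∑ g : G, if δ g = w then X * MonoidAlgebra.single g (1 : ℂ) else 0 := by
  unfold U
  rw [Finset.mul_sum]
  refine Finset.sum_congr rfl fun g _ => ?_
  by_cases hg : δ g = w <;> simp [hg]

theorem U_one_mul (h : Real cs Bs δ q) (X : MonoidAlgebra ℂ G)
    (hX : ∀ b ∈ Bs, MonoidAlgebra.single b (1 : ℂ) * X = X) :
    U δ 1 * X = (Nat.card Bs : ℂ) • X := by
  rw [U_mul, sum_fiber_const δ 1 X _ (fun g hg => hX g ((delta_eq_one_iff h g).mp hg)),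
    card_fiber_one h]

theorem mul_U_one (h : Real cs Bs δ q) (X : MonoidAlgebra ℂ G)
    (hX : ∀ b ∈ Bs, X * MonoidAlgebra.single b (1 : ℂ) = X) :
    X * U δ 1 = (Nat.card Bs : ℂ) • X := by
  rw [mul_U, sum_fiber_const δ 1 X _ (fun g hg => hX g ((delta_eq_one_iff h g).mp hg)),
    card_fiber_one h]

theorem U_single_U_congr (h : Real cs Bs δ q) {g x : G} (hx : δ x = δ g) :
    U δ 1 * MonoidAlgebra.single x (1 : ℂ) * U δ 1 =
      U δ 1 * MonoidAlgebra.single g (1 : ℂ) * U δ 1 := by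
  obtain ⟨b, hb, b', hb', rfl⟩ := (h.fib g x).mp hx.symm
  have h1 : MonoidAlgebra.single (b * g * b') (1 : ℂ) =
      MonoidAlgebra.single b (1 : ℂ) * MonoidAlgebra.single g (1 : ℂ) *
        MonoidAlgebra.single b' (1 : ℂ) := by
    rw [MonoidAlgebra.single_mul_single, MonoidAlgebra.single_mul_single]
    simp
  calc U δ 1 * MonoidAlgebra.single (b * g * b') (1 : ℂ) * U δ 1
      = (U δ 1 * MonoidAlgebra.single b (1 : ℂ)) * MonoidAlgebra.single g (1 : ℂ) *
          (MonoidAlgebra.single b' (1 : ℂ) * U δ 1) := by rw [h1]; simp only [mul_assoc]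
    _ = _ := by rw [U_mul_single h hb, single_mul_U h hb']

/-- `|B|² U_w = |fibre| (U_1 g U_1)` -/
theorem key (h : Real cs Bs δ q) (g : G) :
    ((Nat.card Bs : ℂ) * (Nat.card Bs : ℂ)) • U δ (δ g) =
      (Nat.card {x : G // δ x = δ g} : ℂ) •
        (U δ 1 * MonoidAlgebra.single g (1 : ℂ) * U δ 1) := by
  have h1 : U δ 1 * U δ (δ g) * U δ 1 = ((Nat.card Bs : ℂ) * (Nat.card Bs : ℂ)) • U δ (δ g) := by
    rw [U_one_mul h _ (fun b hb => single_mul_U h hb _), smul_mul_assoc,
      mul_U_one h _ (fun b hb => U_mul_single h hb _), smul_smul]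
  rw [← h1, mul_U δ (δ g) (U δ 1), Finset.sum_mul]
  rw [← sum_fiber_const δ (δ g) _
    (fun x => U δ 1 * MonoidAlgebra.single x (1 : ℂ) * U δ 1) (fun x hx => U_single_U_congr h hx)]
  refine Finset.sum_congr rfl fun x _ => ?_
  by_cases hx : δ x = δ g <;> simp [hx]

end G4

open G1b G4 in
theorem e_single_e (h : Real cs Bs δ q)
    (hc : ∀ w, Nat.card {g : G // δ g = w} = q ^ cs.length w * Nat.card Bs) (g : G) :
    TT Bs δ 1 * MonoidAlgebra.single g (1 : ℂ) * TT Bs δ 1 = ((q : ℂ) ^ cs.length (δ g))⁻¹ • TT Bs δ (δ g) := by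
  have hk := key h g
  rw [hc (δ g)] at hk
  have hB := card_ne_zero Bs
  have hq : (q : ℂ) ≠ 0 := by exact_mod_cast h.pos.ne'
  have hql : (q : ℂ) ^ cs.length (δ g) ≠ 0 := pow_ne_zero _ hq
  have hF : U δ 1 * MonoidAlgebra.single g (1 : ℂ) * U δ 1 =
      (((q : ℂ) ^ cs.length (δ g))⁻¹ * (Nat.card Bs : ℂ)) • U δ (δ g) := by
    have h2 := congrArg (fun z => (((q : ℂ) ^ cs.length (δ g) * (Nat.card Bs : ℂ)))⁻¹ • z) hk
    simp only [smul_smul] at h2
    push_cast at h2
    rw [inv_mul_cancel₀ (mul_ne_zero hql hB), one_smul] at h2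
    rw [← h2]
    congr 1
    field_simp
  rw [TT_eq, TT_eq, smul_mul_assoc, smul_mul_assoc, mul_smul_comm, hF, smul_smul, smul_smul,
    smul_smul]
  congr 1
  field_simp

end Cfsg.Agent.Lib.Helper36.Hecke
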