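import Cfsg.Agent.Lib.Helper36.Hecke.G4

set_option autoImplicit false
set_option linter.unusedSectionVars false

namespace Cfsg.Agent.Lib.Helper36.Hecke

open Polynomial

variable {ι : Type*} {M : CoxeterMatrix ι} {W : Type*} [Group W] {cs : CoxeterSystem M W}
variable {G : Type*} [Group G] [Fintype G] [DecidableEq W] {Bs : Subgroup G} {δ : G → W} {q : ℕ}

theorem sum_conj_mem_center (a : MonoidAlgebra ℂ G) :
    ∑ g : G, MonoidAlgebra.single g (1 : ℂ) * a * MonoidAlgebra.single g⁻¹ (1 : ℂ) ∈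
      Subalgebra.center ℂ (MonoidAlgebra ℂ G) := by
  rw [Subalgebra.mem_center_iff]
  intro b
  induction b using MonoidAlgebra.induction_linear with
  | zero => simp
  | add f g hf hg => rw [add_mul, mul_add, hf, hg]
  | single x r =>
    rw [Finset.mul_sum, Finset.sum_mul]
    rw [← Equiv.sum_comp (Equiv.mulLeft x)
      (fun g => MonoidAlgebra.single g (1 : ℂ) * a * MonoidAlgebra.single g⁻¹ (1 : ℂ) *
        MonoidAlgebra.single x r)]
    refine Finset.sum_congr rfl fun g _ => ?_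
    simp only [Equiv.coe_mulLeft]
    have h1 : MonoidAlgebra.single x r * (MonoidAlgebra.single g (1 : ℂ) * a *
        MonoidAlgebra.single g⁻¹ (1 : ℂ)) =
        (MonoidAlgebra.single x r * MonoidAlgebra.single g (1 : ℂ)) * a *
          MonoidAlgebra.single g⁻¹ (1 : ℂ) := by simp only [mul_assoc]
    have h2 : MonoidAlgebra.single (x * g) (1 : ℂ) * a * MonoidAlgebra.single (x * g)⁻¹ (1 : ℂ) *
        MonoidAlgebra.single x r =
        MonoidAlgebra.single (x * g) (1 : ℂ) * a * (MonoidAlgebra.single (x * g)⁻¹ (1 : ℂ) *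
        MonoidAlgebra.single x r) := by simp only [mul_assoc]
    rw [h1, h2, MonoidAlgebra.single_mul_single, MonoidAlgebra.single_mul_single]
    have h3 : (x * g)⁻¹ * x = g⁻¹ := by group
    rw [h3, mul_one, one_mul]
    have h4 : MonoidAlgebra.single (x * g) r = r • MonoidAlgebra.single (x * g) (1 : ℂ) := by
      rw [MonoidAlgebra.smul_single, smul_eq_mul, mul_one]
    have h5 : MonoidAlgebra.single g⁻¹ r = r • MonoidAlgebra.single g⁻¹ (1 : ℂ) := by
      rw [MonoidAlgebra.smul_single, smul_eq_mul, mul_one]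
    rw [h4, h5, smul_mul_assoc, smul_mul_assoc, mul_smul_comm]

open G1b G4 in
theorem casimir [Fintype W] (h : Real cs Bs δ q)
    (he : ∀ g : G, TT Bs δ 1 * MonoidAlgebra.single g (1 : ℂ) * TT Bs δ 1 =
      ((q : ℂ) ^ cs.length (δ g))⁻¹ • TT Bs δ (δ g))
    (hc : ∀ w, Nat.card {g : G // δ g = w} = q ^ cs.length w * Nat.card Bs)
    (a : MonoidAlgebra ℂ G) (h1 : TT Bs δ 1 * a = a) (h2 : a * TT Bs δ 1 = a) :
    ∑ w : W, ((q : ℂ) ^ cs.length w)⁻¹ • (TT Bs δ w * a * TT Bs δ w⁻¹) =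
      (Nat.card Bs : ℂ)⁻¹ • (TT Bs δ 1 *
        (∑ g : G, MonoidAlgebra.single g (1 : ℂ) * a * MonoidAlgebra.single g⁻¹ (1 : ℂ)) * TT Bs δ 1) := by
  have hB := card_ne_zero Bs
  have hq : (q : ℂ) ≠ 0 := by exact_mod_cast h.pos.ne'
  -- each term
  have hterm : ∀ g : G, TT Bs δ 1 * (MonoidAlgebra.single g (1 : ℂ) * a *
      MonoidAlgebra.single g⁻¹ (1 : ℂ)) * TT Bs δ 1 =
      (((q : ℂ) ^ cs.length (δ g))⁻¹ * ((q : ℂ) ^ cs.length (δ g))⁻¹) •
        (TT Bs δ (δ g) * a * TT Bs δ (δ g)⁻¹) := by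
    intro g
    have h3 : a = TT Bs δ 1 * a * TT Bs δ 1 := by rw [h1, h2]
    calc TT Bs δ 1 * (MonoidAlgebra.single g (1 : ℂ) * a *
        MonoidAlgebra.single g⁻¹ (1 : ℂ)) * TT Bs δ 1
        = TT Bs δ 1 * (MonoidAlgebra.single g (1 : ℂ) * (TT Bs δ 1 * a * TT Bs δ 1) *
          MonoidAlgebra.single g⁻¹ (1 : ℂ)) * TT Bs δ 1 := by rw [← h3]
      _ = (TT Bs δ 1 * MonoidAlgebra.single g (1 : ℂ) * TT Bs δ 1) * a *
          (TT Bs δ 1 * MonoidAlgebra.single g⁻¹ (1 : ℂ) * TT Bs δ 1) := by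
            simp only [mul_assoc]
      _ = _ := by
            rw [he g, he g⁻¹, h.inv, cs.length_inv, smul_mul_assoc, smul_mul_assoc,
              mul_smul_comm, smul_smul]
  rw [Finset.mul_sum, Finset.sum_mul]
  simp only [hterm]
  -- group by the fibres
  rw [← Finset.sum_fiberwise (s := Finset.univ) (g := δ), Finset.smul_sum]
  refine Finset.sum_congr rfl fun w _ => ?_
  have h4 : ∀ g ∈ Finset.univ.filter (fun g : G => δ g = w),
      (((q : ℂ) ^ cs.length (δ g))⁻¹ * ((q : ℂ) ^ cs.length (δ g))⁻¹) •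
        (TT Bs δ (δ g) * a * TT Bs δ (δ g)⁻¹) =
      (((q : ℂ) ^ cs.length w)⁻¹ * ((q : ℂ) ^ cs.length w)⁻¹) •
        (TT Bs δ w * a * TT Bs δ w⁻¹) := by
    intro g hg
    rw [(Finset.mem_filter.mp hg).2]
  rw [Finset.sum_congr rfl h4, Finset.sum_const, card_filter_eq, hc w, ← Nat.cast_smul_eq_nsmul ℂ,
    smul_smul, smul_smul]
  congr 1
  have hql : (q : ℂ) ^ cs.length w ≠ 0 := pow_ne_zero _ hq
  push_cast
  field_simp

end Cfsg.Agent.Lib.Helper36.Hecke
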