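import Cfsg.Agent.Lib.Helper36.Hecke.G1b

set_option autoImplicit false
set_option linter.unusedSectionVars false

namespace Cfsg.Agent.Lib.Helper36.Hecke

open Polynomial

variable {ι : Type*} {M : CoxeterMatrix ι} {W : Type*} [Group W] {cs : CoxeterSystem M W}
variable {G : Type*} [Group G] [Fintype G] [DecidableEq W] {Bs : Subgroup G} {δ : G → W} {q : ℕ}

open G1b in
theorem exists_Th_eq [Fintype W] (h : Real cs Bs δ q) (a : MonoidAlgebra ℂ G) (h1 : TT Bs δ 1 * a = a)
    (h2 : a * TT Bs δ 1 = a) : ∃ c : W → ℂ, a = Th (TT Bs δ) c := by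
  have hL : ∀ b ∈ Bs, MonoidAlgebra.single b (1 : ℂ) * TT Bs δ 1 = TT Bs δ 1 := by
    intro b hb
    apply MonoidAlgebra.ext
    ext x
    rw [MonoidAlgebra.coeff_single_mul_apply, one_mul, TT_eq, MonoidAlgebra.coeff_smul_apply,
      MonoidAlgebra.coeff_smul_apply, U_coeff, U_coeff, delta_mul_left h _ (Bs.inv_mem hb)]
  have hR : ∀ b ∈ Bs, TT Bs δ 1 * MonoidAlgebra.single b (1 : ℂ) = TT Bs δ 1 := by
    intro b hb
    apply MonoidAlgebra.ext
    ext x
    rw [MonoidAlgebra.coeff_mul_single_apply, mul_one, TT_eq, MonoidAlgebra.coeff_smul_apply,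
      MonoidAlgebra.coeff_smul_apply, U_coeff, U_coeff, delta_mul_right h _ (Bs.inv_mem hb)]
  have haL : ∀ b ∈ Bs, ∀ x, a.coeff (b * x) = a.coeff x := by
    intro b hb x
    have h3 : MonoidAlgebra.single b⁻¹ (1 : ℂ) * a = a := by
      conv_lhs => rw [← h1, ← mul_assoc, hL _ (Bs.inv_mem hb)]
      exact h1
    have h4 := congrArg (fun y => y.coeff x) h3
    simp only [MonoidAlgebra.coeff_single_mul_apply, one_mul, inv_inv] at h4
    exact h4
  have haR : ∀ b ∈ Bs, ∀ x, a.coeff (x * b) = a.coeff x := by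
    intro b hb x
    have h3 : a * MonoidAlgebra.single b⁻¹ (1 : ℂ) = a := by
      conv_lhs => rw [← h2, mul_assoc, hR _ (Bs.inv_mem hb)]
      exact h2
    have h4 := congrArg (fun y => y.coeff x) h3
    simp only [MonoidAlgebra.coeff_mul_single_apply, mul_one, inv_inv] at h4
    exact h4
  have hconst : ∀ g g', δ g = δ g' → a.coeff g' = a.coeff g := by
    intro g g' hgg
    obtain ⟨b, hb, b', hb', rfl⟩ := (h.fib g g').mp hgg
    rw [haR b' hb', haL b hb]
  choose pt hpt using h.surj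
  refine ⟨fun w => (Nat.card Bs : ℂ) * a.coeff (pt w), ?_⟩
  apply MonoidAlgebra.ext
  ext x
  unfold Th
  rw [MonoidAlgebra.coeff_sum, Finsupp.finsetSum_apply]
  have : ∀ w : W, (((Nat.card Bs : ℂ) * a.coeff (pt w)) • TT Bs δ w).coeff x =
      if w = δ x then a.coeff x else 0 := by
    intro w
    rw [MonoidAlgebra.coeff_smul_apply, TT_eq, MonoidAlgebra.coeff_smul_apply, U_coeff]
    by_cases hw : w = δ x
    · rw [if_pos hw, if_pos hw.symm, hconst x (pt w) (by rw [hpt, hw])]
      have := card_ne_zero Bs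
      simp only [smul_eq_mul]
      field_simp
    · rw [if_neg hw, if_neg (fun h' => hw h'.symm)]
      simp
  simp only [this]
  simp

end Cfsg.Agent.Lib.Helper36.Hecke
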