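import Cfsg.Agent.Lib.Helper36.Hecke.G4

set_option autoImplicit false
set_option linter.unusedSectionVars false

namespace Cfsg.Agent.Lib.Helper36.Hecke

open Polynomial

variable {ι : Type*} {M : CoxeterMatrix ι} {W : Type*} [Group W] {cs : CoxeterSystem M W}
variable {G : Type*} [Group G] [Fintype G] [DecidableEq W] {Bs : Subgroup G} {δ : G → W} {q : ℕ}

namespace G7

open G1b G4

/-- the standard hermitian form on the group algebra -/
noncomputable def ip (x y : MonoidAlgebra ℂ G) : ℂ :=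
  ∑ g : G, x.coeff g * (starRingEnd ℂ) (y.coeff g)

theorem ip_add_left (x x' y : MonoidAlgebra ℂ G) : ip (x + x') y = ip x y + ip x' y := by
  unfold ip
  rw [← Finset.sum_add_distrib]
  refine Finset.sum_congr rfl fun g _ => ?_
  rw [MonoidAlgebra.coeff_add, Finsupp.add_apply, add_mul]

theorem ip_zero_left (y : MonoidAlgebra ℂ G) : ip 0 y = 0 := by
  unfold ip
  simp

theorem ip_smul_left (c : ℂ) (x y : MonoidAlgebra ℂ G) : ip (c • x) y = c * ip x y := by
  unfold ip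
  rw [Finset.mul_sum]
  refine Finset.sum_congr rfl fun g _ => ?_
  rw [MonoidAlgebra.coeff_smul_apply, smul_eq_mul, mul_assoc]

theorem ip_sum_left {α : Type*} (s : Finset α) (f : α → MonoidAlgebra ℂ G)
    (y : MonoidAlgebra ℂ G) : ip (∑ i ∈ s, f i) y = ∑ i ∈ s, ip (f i) y := by
  classical
  induction s using Finset.induction_on with
  | empty => simp [ip_zero_left]
  | insert a s ha ih => rw [Finset.sum_insert ha, Finset.sum_insert ha, ip_add_left, ih]

theorem ip_add_right (x y y' : MonoidAlgebra ℂ G) : ip x (y + y') = ip x y + ip x y' := by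
  unfold ip
  rw [← Finset.sum_add_distrib]
  refine Finset.sum_congr rfl fun g _ => ?_
  rw [MonoidAlgebra.coeff_add, Finsupp.add_apply, map_add, mul_add]

theorem ip_zero_right (x : MonoidAlgebra ℂ G) : ip x 0 = 0 := by
  unfold ip
  simp

theorem ip_sum_right {α : Type*} (s : Finset α) (f : α → MonoidAlgebra ℂ G)
    (x : MonoidAlgebra ℂ G) : ip x (∑ i ∈ s, f i) = ∑ i ∈ s, ip x (f i) := by
  classical
  induction s using Finset.induction_on with
  | empty => simp [ip_zero_right]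
  | insert a s ha ih => rw [Finset.sum_insert ha, Finset.sum_insert ha, ip_add_right, ih]

theorem ip_smul_right_real (c : ℝ) (x y : MonoidAlgebra ℂ G) :
    ip x ((c : ℂ) • y) = (c : ℂ) * ip x y := by
  unfold ip
  rw [Finset.mul_sum]
  refine Finset.sum_congr rfl fun g _ => ?_
  rw [MonoidAlgebra.coeff_smul_apply, smul_eq_mul, map_mul, Complex.conj_ofReal]
  ring

theorem ip_single_mul (g : G) (x y : MonoidAlgebra ℂ G) :
    ip (MonoidAlgebra.single g (1 : ℂ) * x) y = ip x (MonoidAlgebra.single g⁻¹ (1 : ℂ) * y) := by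
  unfold ip
  rw [← Equiv.sum_comp (Equiv.mulLeft g)]
  refine Finset.sum_congr rfl fun k _ => ?_
  simp only [Equiv.coe_mulLeft]
  rw [MonoidAlgebra.coeff_single_mul_apply, MonoidAlgebra.coeff_single_mul_apply]
  simp

theorem ip_U_mul (h : Real cs Bs δ q) (w : W) (x y : MonoidAlgebra ℂ G) :
    ip (U δ w * x) y = ip x (U δ w⁻¹ * y) := by
  rw [U_mul, U_mul, ip_sum_left, ip_sum_right]
  rw [← Equiv.sum_comp (Equiv.inv G)
    (fun g => ip x (if δ g = w⁻¹ then MonoidAlgebra.single g (1 : ℂ) * y else 0))]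
  refine Finset.sum_congr rfl fun g _ => ?_
  simp only [Equiv.inv_apply]
  by_cases hg : δ g = w
  · have : δ g⁻¹ = w⁻¹ := by rw [h.inv, hg]
    rw [if_pos hg, if_pos this, ip_single_mul]
  · have : δ g⁻¹ ≠ w⁻¹ := by
      rw [h.inv]
      intro h2
      exact hg (inv_injective h2)
    rw [if_neg hg, if_neg this, ip_zero_left, ip_zero_right]

theorem ip_TT_mul (h : Real cs Bs δ q) (w : W) (x y : MonoidAlgebra ℂ G) :
    ip (TT Bs δ w * x) y = ip x (TT Bs δ w⁻¹ * y) := by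
  rw [TT_eq, TT_eq, smul_mul_assoc, smul_mul_assoc, ip_smul_left, ip_U_mul h]
  have : ((Nat.card Bs : ℂ)⁻¹) = (((Nat.card Bs : ℝ)⁻¹ : ℝ) : ℂ) := by push_cast; rfl
  rw [this, ip_smul_right_real]

/-- the squared norm -/
noncomputable def nrm (x : MonoidAlgebra ℂ G) : ℝ := ∑ g : G, Complex.normSq (x.coeff g)

theorem ip_self (x : MonoidAlgebra ℂ G) : ip x x = (nrm x : ℂ) := by
  unfold ip nrm
  push_cast
  refine Finset.sum_congr rfl fun g _ => ?_
  rw [Complex.mul_conj]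

theorem nrm_nonneg (x : MonoidAlgebra ℂ G) : 0 ≤ nrm x :=
  Finset.sum_nonneg fun _ _ => Complex.normSq_nonneg _

theorem eq_zero_of_nrm (x : MonoidAlgebra ℂ G) (hx : nrm x = 0) : x = 0 := by
  apply MonoidAlgebra.ext
  ext g
  have := (Finset.sum_eq_zero_iff_of_nonneg (fun g _ => Complex.normSq_nonneg (x.coeff g))).mp hx g
    (Finset.mem_univ g)
  simpa using this

end G7

open G1b G4 G7 in
theorem eq_zero_of_casimir [Fintype W] (h : Real cs Bs δ q) (a : MonoidAlgebra ℂ G)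
    (hcomm : ∀ w, TT Bs δ w * a = a * TT Bs δ w) (h1 : TT Bs δ 1 * a = a)
    (h0 : ∑ w : W, ((q : ℂ) ^ cs.length w)⁻¹ • (TT Bs δ w * a * TT Bs δ w⁻¹) = 0) : a = 0 := by
  have hq : (0 : ℝ) < q := by exact_mod_cast h.pos
  have h2 : ip (∑ w : W, ((q : ℂ) ^ cs.length w)⁻¹ • (TT Bs δ w * a * TT Bs δ w⁻¹)) a = 0 := by
    rw [h0, ip_zero_left]
  rw [ip_sum_left] at h2
  have h3 : ∀ w : W, ip (((q : ℂ) ^ cs.length w)⁻¹ • (TT Bs δ w * a * TT Bs δ w⁻¹)) a =
      ((((q : ℝ) ^ cs.length w)⁻¹ * nrm (TT Bs δ w⁻¹ * a) : ℝ) : ℂ) := by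
    intro w
    rw [ip_smul_left, mul_assoc, ← hcomm w⁻¹, ip_TT_mul h, ip_self]
    push_cast
    rfl
  simp only [h3] at h2
  rw [← Complex.ofReal_sum] at h2
  have h4 : ∑ w : W, ((q : ℝ) ^ cs.length w)⁻¹ * nrm (TT Bs δ w⁻¹ * a) = 0 := by
    exact_mod_cast h2
  have h5 := (Finset.sum_eq_zero_iff_of_nonneg (fun w _ =>
    mul_nonneg (inv_nonneg.mpr (pow_nonneg hq.le _)) (nrm_nonneg (TT Bs δ w⁻¹ * a)))).mp h4 1
    (Finset.mem_univ 1)
  rw [inv_one, h1, cs.length_one, pow_zero, inv_one, one_mul] at h5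
  exact eq_zero_of_nrm a h5

end Cfsg.Agent.Lib.Helper36.Hecke
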