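import Mathlib

set_option autoImplicit false

namespace Cfsg.Agent.Lib.Helper36.Hecke

open Polynomial

/-- a matrix of rank `r` has a two-sided "inverse" of size `r` -/
theorem exists_mul_mul_eq_one {m n : Type*} [Fintype m] [Fintype n] [DecidableEq m] [DecidableEq n]
    (B : Matrix m n ℂ) (r : ℕ) (hr : B.rank = r) :
    ∃ (P : Matrix (Fin r) m ℂ) (Q : Matrix n (Fin r) ℂ), P * B * Q = 1 := by
  classical
  have hr' : Module.finrank ℂ (LinearMap.range B.mulVecLin) = r := hr
  let b := Module.finBasisOfFinrankEq ℂ (LinearMap.range B.mulVecLin) hr'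
  obtain ⟨σ, hσ⟩ := LinearMap.exists_rightInverse_of_surjective B.mulVecLin.rangeRestrict
    (LinearMap.range_rangeRestrict B.mulVecLin)
  set φ : (Fin r → ℂ) →ₗ[ℂ] (m → ℂ) :=
    (LinearMap.range B.mulVecLin).subtype ∘ₗ b.equivFun.symm.toLinearMap with hφ
  have hφinj : LinearMap.ker φ = ⊥ := by
    rw [LinearMap.ker_eq_bot]
    exact (LinearMap.range B.mulVecLin).subtype_injective.comp b.equivFun.symm.injective
  obtain ⟨ψ, hψ⟩ := LinearMap.exists_leftInverse_of_injective φ hφinj
  set g0 : (Fin r → ℂ) →ₗ[ℂ] (n → ℂ) := σ ∘ₗ b.equivFun.symm.toLinearMap with hg0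
  have hfg : B.mulVecLin ∘ₗ g0 = φ := by
    apply LinearMap.ext
    intro x
    have h1 := LinearMap.congr_fun hσ (b.equivFun.symm x)
    have h2 := congrArg Subtype.val h1
    simpa [hg0, hφ] using h2
  refine ⟨LinearMap.toMatrix' ψ, LinearMap.toMatrix' g0, ?_⟩
  have hB : B = LinearMap.toMatrix' B.mulVecLin := by
    rw [← Matrix.toLin'_apply', LinearMap.toMatrix'_toLin']
  calc LinearMap.toMatrix' ψ * B * LinearMap.toMatrix' g0
      = LinearMap.toMatrix' ψ * LinearMap.toMatrix' B.mulVecLin * LinearMap.toMatrix' g0 := by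
        rw [← hB]
    _ = 1 := by
        rw [← LinearMap.toMatrix'_comp, ← LinearMap.toMatrix'_comp, LinearMap.comp_assoc, hfg, hψ,
          LinearMap.toMatrix'_id]

/-- lower semicontinuity of the rank of a matrix of polynomials -/
theorem finite_rank_lt {m n : Type*} [Fintype m] [Fintype n] [DecidableEq m] [DecidableEq n]
    (A : Matrix m n ℂ[X]) (u0 : ℂ) :
    {u : ℂ | (A.map (eval u)).rank < (A.map (eval u0)).rank}.Finite := by
  classical
  obtain ⟨P, Q, hPQ⟩ := exists_mul_mul_eq_one (A.map (eval u0)) _ rfl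
  set d : ℂ[X] := (P.map C * A * Q.map C).det with hd
  have hev : ∀ u, eval u d = (P * A.map (eval u) * Q).det := by
    intro u
    have h1 := RingHom.map_det (evalRingHom u) (P.map C * A * Q.map C)
    rw [coe_evalRingHom] at h1
    rw [hd, h1]
    congr 1
    rw [RingHom.mapMatrix_apply, Matrix.map_mul, Matrix.map_mul]
    congr 1
    · congr 1
      ext i j
      simp
    · ext i j
      simp
  have hd0 : d ≠ 0 := by
    intro h0
    have := hev u0
    rw [hPQ, Matrix.det_one, h0, eval_zero] at this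
    exact zero_ne_one this
  apply (d.roots.toFinset.finite_toSet).subset
  intro u hu
  simp only [Set.mem_ofPred_eq] at hu
  simp only [Finset.mem_coe, Multiset.mem_toFinset, mem_roots hd0, IsRoot.def]
  by_contra hne
  rw [hev u] at hne
  have h1 : (P * A.map (eval u) * Q).rank = Fintype.card (Fin (A.map (eval u0)).rank) :=
    Matrix.rank_of_isUnit _ ((Matrix.isUnit_iff_isUnit_det _).2 (isUnit_iff_ne_zero.2 hne))
  rw [Fintype.card_fin] at h1
  have h2 : (P * A.map (eval u) * Q).rank ≤ (A.map (eval u)).rank :=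
    (Matrix.rank_mul_le_left _ _).trans (Matrix.rank_mul_le_right _ _)
  omega

theorem rank_eq_of_infinite {m n : Type*} [Fintype m] [Fintype n] [DecidableEq m] [DecidableEq n]
    (C : Matrix n n ℂ[X]) (K : Matrix m n ℂ[X]) (E : Set ℂ) (hE : E.Infinite)
    (h : ∀ u ∈ E, (C.map (eval u)).rank + (K.map (eval u)).rank = Fintype.card n) :
    ∀ u ∈ E, ∀ u' ∈ E, (K.map (eval u)).rank = (K.map (eval u')).rank := by
  have key : ∀ u ∈ E, ∀ u' ∈ E, (K.map (eval u)).rank ≤ (K.map (eval u')).rank := by
    intro u hu u' hu'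
    obtain ⟨u2, hu2, hnot⟩ := hE.exists_notMem_finite
      ((finite_rank_lt K u).union (finite_rank_lt C u'))
    simp only [Set.mem_union, Set.mem_ofPred_eq, not_or, not_lt] at hnot
    have h1 := h u2 hu2
    have h2 := h u' hu'
    omega
  intro u hu u' hu'
  exact le_antisymm (key u hu u' hu') (key u' hu' u hu)

end Cfsg.Agent.Lib.Helper36.Hecke
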