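import Cfsg.Agent.Lib.Helper36.Hecke.Defs
import Cfsg.Agent.Lib.Helper36.BNSt.E
import Cfsg.Agent.Lib.Helper36.BNSt.Q1
import Cfsg.Agent.Lib.Helper80.Constituent
import Cfsg.Agent.Lib.Helper4.SecondMainB
import Cfsg.Agent.Lib.Helper15.Glauberman

/-! # Piece X: the dimension of `Z(ℂG) e_B` is the number of constituents of `1_B^G` -/

set_option autoImplicit false
set_option linter.unusedSectionVars false

namespace Cfsg.Agent.Lib.Helper36.Hecke

open Cfsg Cfsg.Agent.Lib
open scoped ComplexConjugate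

section X

variable {G : Type*} [Group G] [Fintype G]

/-- coefficient functions -/
noncomputable def cfL : MonoidAlgebra ℂ G ≃ₗ[ℂ] (G → ℂ) :=
  (MonoidAlgebra.coeffLinearEquiv ℂ).trans (Finsupp.linearEquivFunOnFinite ℂ ℂ G)

theorem cfL_apply (a : MonoidAlgebra ℂ G) (x : G) : cfL a x = a.coeff x := rfl

/-- right average over the subgroup -/
noncomputable def avgB (Bs : Subgroup G) [DecidablePred (· ∈ Bs)] (f : G → ℂ) : G → ℂ := fun x =>
  (Nat.card Bs : ℂ)⁻¹ * ∑ g : G, if g ∈ Bs then f (x * g⁻¹) else 0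

theorem cfL_mul_eB (Bs : Subgroup G) [DecidablePred (· ∈ Bs)] (a : MonoidAlgebra ℂ G) :
    cfL (a * eB Bs) = avgB Bs (cfL a) := by
  funext x
  rw [cfL_apply, eB, mul_smul_comm, MonoidAlgebra.coeff_smul_apply, Finset.mul_sum,
    MonoidAlgebra.coeff_sum, Finsupp.finsetSum_apply, avgB, smul_eq_mul]
  congr 1
  refine Finset.sum_congr rfl fun g _ => ?_
  split_ifs
  · rw [MonoidAlgebra.coeff_mul_single_apply, mul_one, cfL_apply]
  · simp

theorem mem_center_iff_cf (a : MonoidAlgebra ℂ G) :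
    a ∈ Subalgebra.center ℂ (MonoidAlgebra ℂ G) ↔ IsClassFunction G (cfL a) := by
  rw [Subalgebra.mem_center_iff]
  constructor
  · intro h g k
    have h1 := congrArg (fun z => z.coeff (k * g)) (h (MonoidAlgebra.single k 1))
    simp only [MonoidAlgebra.coeff_mul_single_apply, MonoidAlgebra.coeff_single_mul_apply, one_mul,
      mul_one, inv_mul_cancel_left] at h1
    rw [cfL_apply, cfL_apply, h1]
  · intro h b
    induction b using MonoidAlgebra.induction_linear with
    | zero => simp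
    | add x y hx hy => rw [add_mul, mul_add, hx, hy]
    | single k r =>
      apply MonoidAlgebra.coeff_injective
      ext x
      rw [MonoidAlgebra.coeff_mul_single_apply, MonoidAlgebra.coeff_single_mul_apply, mul_comm]
      congr 1
      have := h (k⁻¹ * x) k
      rw [cfL_apply, cfL_apply] at this
      rw [← this]
      congr 1
      group

theorem sum_mem_one (Bs : Subgroup G) [DecidablePred (· ∈ Bs)] :
    ∑ g : G, (if g ∈ Bs then (1 : ℂ) else 0) = (Nat.card Bs : ℂ) := by
  rw [Finset.sum_ite, Finset.sum_const_zero, add_zero, Finset.sum_const, nsmul_eq_mul, mul_one,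
    Nat.card_eq_fintype_card, Fintype.card_subtype]

theorem card_Bs_ne_zero (Bs : Subgroup G) : (Nat.card Bs : ℂ) ≠ 0 := by
  exact_mod_cast Nat.card_pos.ne'

/-- the pairing formula (generalised orthogonality) -/
theorem sum_avgB_mul (Bs : Subgroup G) [DecidablePred (· ∈ Bs)] {χ χ' : G → ℂ}
    (hχ : IsIrrCharacter G χ) (hχ' : IsIrrCharacter G χ') (c : G) :
    ∑ x : G, avgB Bs χ x * χ' (x⁻¹ * c) =
      Helper78.omega χ' (fun x => χ x⁻¹) * avgB Bs χ' c := by
  have ha : IsClassFunction G (fun x => χ x⁻¹) := Helper15.cf_inv (Helper15.irr_cf hχ)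
  have hcl : IsClassFunction G χ' := Helper15.irr_cf hχ'
  have key : ∀ g : G, ∑ x : G, χ (x * g⁻¹) * χ' (x⁻¹ * c) =
      Helper78.omega χ' (fun x => χ x⁻¹) * χ' (c * g⁻¹) := by
    intro g
    rw [← Helper4.sum_class_mul_irr hχ' ha (c * g⁻¹)]
    rw [← Equiv.sum_comp ((Equiv.inv G).trans (Equiv.mulRight g))]
    refine Finset.sum_congr rfl fun y _ => ?_
    simp only [Equiv.trans_apply, Equiv.inv_apply, Equiv.coe_mulRight, mul_inv_cancel_right,
      mul_inv_rev, inv_inv]
    congr 1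
    rw [mul_assoc, Helper78.IsClassFunction.mul_comm' hcl, mul_assoc]
  unfold avgB
  simp only [mul_assoc, Finset.sum_mul, ← Finset.mul_sum]
  rw [mul_left_comm]
  congr 1
  rw [Finset.sum_comm, Finset.mul_sum]
  refine Finset.sum_congr rfl fun g _ => ?_
  split_ifs
  · exact key g
  · simp

theorem avgB_of_mem (Bs : Subgroup G) [DecidablePred (· ∈ Bs)] (f : G → ℂ) {b : G} (hb : b ∈ Bs) :
    avgB Bs f b = avgB Bs f 1 := by
  unfold avgB
  congr 1
  rw [← Equiv.sum_comp (Equiv.mulRight b)]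
  refine Finset.sum_congr rfl fun g _ => ?_
  simp only [Equiv.coe_mulRight, mul_inv_rev, mul_inv_cancel_left, one_mul,
    Bs.mul_mem_cancel_right hb]

theorem conj_avgB (Bs : Subgroup G) [DecidablePred (· ∈ Bs)] {χ : G → ℂ}
    (hχ : IsIrrCharacter G χ) (x : G) :
    conj (avgB Bs χ x) = (Nat.card Bs : ℂ)⁻¹ * ∑ g : G, if g ∈ Bs then χ (x⁻¹ * g) else 0 := by
  unfold avgB
  rw [map_mul, map_inv₀, Complex.conj_natCast, map_sum]
  congr 1
  refine Finset.sum_congr rfl fun g _ => ?_
  split_ifs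
  · rw [← Helper3.IsCharacter.apply_inv (Helper15.irr_char hχ), mul_inv_rev, inv_inv,
      Helper78.IsClassFunction.mul_comm' (Helper15.irr_cf hχ)]
  · simp

theorem norm_avgB (Bs : Subgroup G) [DecidablePred (· ∈ Bs)] {χ : G → ℂ}
    (hχ : IsIrrCharacter G χ) :
    ∑ x : G, avgB Bs χ x * conj (avgB Bs χ x) =
      Helper78.omega χ (fun x => χ x⁻¹) * avgB Bs χ 1 := by
  simp only [conj_avgB Bs hχ]
  have h1 : ∀ x : G, avgB Bs χ x * ((Nat.card Bs : ℂ)⁻¹ * ∑ g : G, if g ∈ Bs then χ (x⁻¹ * g) else 0)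
      = (Nat.card Bs : ℂ)⁻¹ * ∑ g : G, if g ∈ Bs then avgB Bs χ x * χ (x⁻¹ * g) else 0 := by
    intro x
    rw [mul_left_comm, Finset.mul_sum]
    congr 1
    refine Finset.sum_congr rfl fun g _ => ?_
    split_ifs <;> simp
  simp only [h1]
  rw [← Finset.mul_sum, Finset.sum_comm]
  have h2 : ∀ g : G, (∑ x : G, if g ∈ Bs then avgB Bs χ x * χ (x⁻¹ * g) else 0) =
      (Helper78.omega χ (fun x => χ x⁻¹) * avgB Bs χ 1) * (if g ∈ Bs then (1 : ℂ) else 0) := by
    intro g
    split_ifs with hg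
    · rw [sum_avgB_mul Bs hχ hχ g, avgB_of_mem Bs χ hg, mul_one]
    · simp
  simp only [h2]
  rw [← Finset.mul_sum, sum_mem_one, mul_left_comm, inv_mul_cancel₀ (card_Bs_ne_zero Bs), mul_one]

theorem avgB_eq_zero (Bs : Subgroup G) [DecidablePred (· ∈ Bs)] {χ : G → ℂ}
    (hχ : IsIrrCharacter G χ) (h : avgB Bs χ 1 = 0) : avgB Bs χ = 0 := by
  have h1 := norm_avgB Bs hχ
  rw [h, mul_zero] at h1
  have h2 : ∀ x : G, avgB Bs χ x * conj (avgB Bs χ x) = ((Complex.normSq (avgB Bs χ x) : ℝ) : ℂ) :=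
    fun x => Complex.mul_conj _
  simp only [h2] at h1
  rw [← Complex.ofReal_sum, Complex.ofReal_eq_zero,
    Finset.sum_eq_zero_iff_of_nonneg (fun x _ => Complex.normSq_nonneg _)] at h1
  funext x
  exact Complex.normSq_eq_zero.1 (h1 x (Finset.mem_univ x))

theorem omega_self_ne_zero {χ : G → ℂ} (hχ : IsIrrCharacter G χ) :
    Helper78.omega χ (fun x => χ x⁻¹) ≠ 0 := by
  unfold Helper78.omega
  have h := Helper15.irr_inner_self hχ
  unfold classInner at h
  have h3 : ∑ g : G, χ g⁻¹ * χ g = ∑ g : G, χ g * conj (χ g) := by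
    apply Finset.sum_congr rfl
    intro g _
    rw [Helper3.IsCharacter.apply_inv (Helper15.irr_char hχ), mul_comm]
  rw [h3]
  have h4 : ∑ g : G, χ g * conj (χ g) ≠ 0 := by
    intro h0
    rw [h0, mul_zero] at h
    exact zero_ne_one h
  exact div_ne_zero h4 (Helper78.irr_one_ne_zero ⟨χ, hχ⟩)

/-- `avgB χ 1` is the multiplicity of `χ` in the permutation character -/
theorem avgB_one_eq (Bs : Subgroup G) [DecidablePred (· ∈ Bs)] {χ : G → ℂ}
    (hχ : IsIrrCharacter G χ) : avgB Bs χ 1 = classInner (fixedPointCharacter Bs) χ := by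
  classical
  rw [Helper15.inner_comm_of_char (BNSt.isCharacter_fixedPointCharacter Bs) (Helper15.irr_char hχ)]
  obtain ⟨n, ρ, -, rfl⟩ := hχ
  rw [BNSt.classInner_character_fixedPointCharacter, BNSt.finrank_fixS, finsum_eq_sum_of_fintype]
  unfold avgB
  congr 1
  rw [← Equiv.sum_comp (Equiv.inv G)]
  simp only [Equiv.inv_apply, inv_inv, one_mul, inv_mem_iff]
  rw [← Finset.sum_filter]
  exact Finset.sum_subtype _ (fun x => by simp) _

theorem constituent_iff (Bs : Subgroup G) [DecidablePred (· ∈ Bs)] (χ : IrrCharacter G) :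
    (∃ φ : G → ℂ, IsCharacter G φ ∧ fixedPointCharacter Bs = (χ : G → ℂ) + φ) ↔
      avgB Bs (χ : G → ℂ) 1 ≠ 0 := by
  rw [avgB_one_eq Bs χ.2]
  constructor
  · rintro ⟨φ, hφ, h⟩
    obtain ⟨n, hn⟩ := Helper15.inner_nat hφ (Helper15.irr_char χ.2)
    rw [h, Helper3.classInner_add_left, Helper15.irr_inner_self χ.2, hn]
    exact_mod_cast (Nat.succ_ne_zero n ∘ (by omega : 1 + n = 0 → n.succ = 0))
  · intro h
    exact Helper80.exists_add_of_constituent (BNSt.isCharacter_fixedPointCharacter Bs) χ h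

theorem center_eq_span [Fintype (IrrCharacter G)] :
    Subalgebra.toSubmodule (Subalgebra.center ℂ (MonoidAlgebra ℂ G)) =
      Submodule.span ℂ (Set.range fun χ : IrrCharacter G => cfL.symm (χ : G → ℂ)) := by
  apply le_antisymm
  · intro a ha
    rw [Subalgebra.mem_toSubmodule, mem_center_iff_cf] at ha
    have h := Helper3.classFunction_expansion ha
    have h2 : a = ∑ χ : IrrCharacter G, classInner (cfL a) χ • cfL.symm (χ : G → ℂ) := by
      apply cfL.injective
      rw [map_sum]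
      simp only [map_smul, LinearEquiv.apply_symm_apply]
      exact h
    rw [h2]
    exact Submodule.sum_mem _ fun χ _ => Submodule.smul_mem _ _ (Submodule.subset_span ⟨χ, rfl⟩)
  · rw [Submodule.span_le]
    rintro _ ⟨χ, rfl⟩
    rw [SetLike.mem_coe, Subalgebra.mem_toSubmodule, mem_center_iff_cf, LinearEquiv.apply_symm_apply]
    exact Helper15.irr_cf χ.2

theorem finrank_center_mul_eB {G : Type*} [Group G] [Fintype G] (Bs : Subgroup G)
    [DecidablePred (· ∈ Bs)] :
    Module.finrank ℂ ↥((Subalgebra.toSubmodule (Subalgebra.center ℂ (MonoidAlgebra ℂ G))).map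
      (LinearMap.mulRight ℂ (eB Bs))) =
    Nat.card {χ : Cfsg.IrrCharacter G // ∃ φ : G → ℂ, Cfsg.IsCharacter G φ ∧
      Cfsg.fixedPointCharacter Bs = (χ : G → ℂ) + φ} := by
  classical
  have : Fintype (IrrCharacter G) := Fintype.ofFinite _
  set v : IrrCharacter G → MonoidAlgebra ℂ G := fun χ => cfL.symm (χ : G → ℂ) * eB Bs with hv
  have hLv : ∀ χ, cfL (v χ) = avgB Bs (χ : G → ℂ) := by
    intro χ
    rw [hv, cfL_mul_eB, LinearEquiv.apply_symm_apply]
  have hspan : (Subalgebra.toSubmodule (Subalgebra.center ℂ (MonoidAlgebra ℂ G))).map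
      (LinearMap.mulRight ℂ (eB Bs)) = Submodule.span ℂ (Set.range v) := by
    rw [center_eq_span, Submodule.map_span, ← Set.range_comp]
    rfl
  set I := {χ : IrrCharacter G // avgB Bs (χ : G → ℂ) 1 ≠ 0} with hI
  have hspan2 : Submodule.span ℂ (Set.range v) =
      Submodule.span ℂ (Set.range (fun χ : I => v χ.1)) := by
    apply le_antisymm
    · rw [Submodule.span_le]
      rintro _ ⟨χ, rfl⟩
      by_cases h : avgB Bs (χ : G → ℂ) 1 = 0
      · have : v χ = 0 := by
          apply cfL.injective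
          rw [hLv, avgB_eq_zero Bs χ.2 h, map_zero]
        rw [this]
        exact Submodule.zero_mem _
      · exact Submodule.subset_span ⟨⟨χ, h⟩, rfl⟩
    · apply Submodule.span_mono
      rintro _ ⟨χ, rfl⟩
      exact ⟨χ.1, rfl⟩
  have hli : LinearIndependent ℂ (fun χ : I => v χ.1) := by
    rw [Fintype.linearIndependent_iff]
    intro c hc χ'
    have h1 : ∑ χ : I, c χ • avgB Bs (χ.1 : G → ℂ) = 0 := by
      have := congrArg cfL hc
      rw [map_sum, map_zero] at this
      simpa only [map_smul, hLv] using this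
    have h2 : ∑ x : G, (∑ χ : I, c χ • avgB Bs (χ.1 : G → ℂ)) x * (χ'.1 : G → ℂ) (x⁻¹ * 1) = 0 := by
      rw [h1]; simp
    simp only [Finset.sum_apply, Pi.smul_apply, smul_eq_mul, Finset.sum_mul, mul_assoc] at h2
    rw [Finset.sum_comm] at h2
    simp only [← Finset.mul_sum, sum_avgB_mul Bs (Subtype.prop _) χ'.1.2] at h2
    rw [Finset.sum_eq_single χ'] at h2
    · have h3 := mul_ne_zero (omega_self_ne_zero χ'.1.2) χ'.2
      exact (mul_eq_zero.1 h2).resolve_right h3
    · intro χ _ hne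
      rw [Helper15.omega_inv_irr χ.1.2 χ'.1.2 (fun h => hne (Subtype.ext (Subtype.ext h.symm))),
        zero_mul, mul_zero]
    · intro h; exact absurd (Finset.mem_univ _) h
  rw [hspan, hspan2, finrank_span_eq_card hli, ← Nat.card_eq_fintype_card]
  exact Nat.card_congr (Equiv.subtypeEquivRight fun χ => (constituent_iff Bs χ).symm)

end X

end Cfsg.Agent.Lib.Helper36.Hecke
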