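import Cfsg.Agent.Lib.Helper36.Hecke.A1
import Cfsg.Agent.Lib.Helper36.Hecke.G3
import Cfsg.Agent.Lib.Helper36.Hecke.G5
import Cfsg.Agent.Lib.Helper36.Hecke.G6
import Cfsg.Agent.Lib.Helper36.Hecke.G7
import Cfsg.Agent.Lib.Helper36.Hecke.S
import Cfsg.Agent.Lib.Helper36.Hecke.E1
import Cfsg.Agent.Lib.Helper36.Hecke.E2
import Cfsg.Agent.Lib.Helper36.Hecke.E3
import Cfsg.Agent.Lib.Helper36.Hecke.E4
import Cfsg.Agent.Lib.Helper36.Hecke.E5
import Cfsg.Agent.Lib.Helper36.Hecke.G1a
import Cfsg.Agent.Lib.Helper36.Hecke.G1b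
import Cfsg.Agent.Lib.Helper36.Hecke.G1c
import Cfsg.Agent.Lib.Helper36.Hecke.G1d
import Cfsg.Agent.Lib.Helper36.Hecke.G2
import Cfsg.Agent.Lib.Helper36.Hecke.G4
import Cfsg.Agent.Lib.Helper36.Hecke.X
import Cfsg.Agent.Lib.Helper36.Hecke.BN

/-!
# Assembly: the ranks of the Casimir and commutator matrices at a realised parameter
-/

set_option autoImplicit false

namespace Cfsg.Agent.Lib.Helper36.Hecke

open Polynomial Module

variable {ι : Type*} {M : CoxeterMatrix ι} {W : Type*} [Group W] {cs : CoxeterSystem M W}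
  {G : Type*} [Group G] [Fintype G] [DecidableEq W] {Bs : Subgroup G} {δ : G → W} {q : ℕ}

theorem fam_of_real (h : Real cs Bs δ q) : Fam cs (TT Bs δ) (q : ℂ) where
  one_mul := TT_one_mul h
  mul_one := TT_mul_one h
  left_up := TT_left_up h
  right_up := TT_right_up h (TT_left_up h)
  sq := TT_sq h

theorem Real.eq_one_iff (h : Real cs Bs δ q) (g : G) : δ g = 1 ↔ g ∈ Bs := by
  constructor
  · intro hg
    obtain ⟨b, hb, b', hb', e⟩ := (h.fib 1 g).mp (by rw [h.one, hg])
    rw [e]
    exact Bs.mul_mem (Bs.mul_mem hb Bs.one_mem) hb'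
  · intro hg
    rw [← h.one]
    exact ((h.fib 1 g).mpr ⟨g, hg, 1, Bs.one_mem, by simp⟩).symm

theorem TT_one_eq (h : Real cs Bs δ q) [DecidablePred (· ∈ Bs)] : TT Bs δ 1 = eB Bs := by
  unfold TT eB
  congr 1
  refine Finset.sum_congr rfl (fun g _ => ?_)
  simp only [h.eq_one_iff]

/-- `Th` as a linear map -/
noncomputable def ThL [Fintype W] {A : Type*} [Ring A] [Algebra ℂ A] (T : W → A) : (W → ℂ) →ₗ[ℂ] A where
  toFun := Th T
  map_add' c d := by
    simp only [Th, Pi.add_apply, add_smul, Finset.sum_add_distrib]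
  map_smul' a c := by
    simp only [Th, Pi.smul_apply, smul_eq_mul, mul_smul, Finset.smul_sum, RingHom.id_apply]

theorem real_rank [Fintype W] (h : Real cs Bs δ q) :
    ((Cm cs).map (eval (q : ℂ))).rank + ((Km cs).map (eval (q : ℂ))).rank = Fintype.card W ∧
    ((Km cs).map (eval (q : ℂ))).rank + Nat.card {χ : Cfsg.IrrCharacter G // ∃ φ : G → ℂ,
      Cfsg.IsCharacter G φ ∧ Cfsg.fixedPointCharacter Bs = (χ : G → ℂ) + φ} = Fintype.card W := by
  classical
  have hF := fam_of_real h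
  have hli := linearIndependent_TT h
  have hcf := card_fiber h hF
  have hee := e_single_e h hcf
  obtain ⟨T, hT⟩ : ∃ T, T = TT Bs δ := ⟨_, rfl⟩
  rw [← hT] at hF hli hee
  have hq0 : (q : ℂ) ≠ 0 := Nat.cast_ne_zero.mpr h.pos.ne'
  have hTh1 : ∀ c, T 1 * Th T c = Th T c := by
    intro c
    simp only [Th, Finset.mul_sum, mul_smul_comm, hF.one_mul]
  have hTh2 : ∀ c, Th T c * T 1 = Th T c := by
    intro c
    simp only [Th, Finset.sum_mul, smul_mul_assoc, hF.mul_one]
  have hinj : Function.Injective (ThL T) := by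
    rw [← LinearMap.ker_eq_bot, LinearMap.ker_eq_bot']
    intro c hc
    have := Fintype.linearIndependent_iff.mp hli c hc
    exact funext this
  have hee1 : T 1 * T 1 = T 1 := hF.one_mul 1
  have key : ∀ c, Th T (((Cm cs).map (eval (q : ℂ))).mulVec c) =
      (q : ℂ) ^ NN cs • ∑ w : W, ((q : ℂ) ^ cs.length w)⁻¹ • (T w * Th T c * T w⁻¹) := by
    intro c
    rw [Th_Cm hF, Finset.smul_sum]
    refine Finset.sum_congr rfl (fun w _ => ?_)
    rw [smul_smul, pow_sub₀ _ hq0 (length_le_NN cs w)]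
  have ha : ∀ c, ThL T (((Cm cs).map (eval (q : ℂ))).mulVecLin c) ∈
      (Subalgebra.toSubmodule (Subalgebra.center ℂ (MonoidAlgebra ℂ G))).map (LinearMap.mulRight ℂ (T 1)) := by
    intro c
    show Th T (((Cm cs).map (eval (q : ℂ))).mulVec c) ∈ _
    have hcas := casimir h (by rw [← hT]; exact hee) hcf (Th T c) (by rw [← hT]; exact hTh1 c)
      (by rw [← hT]; exact hTh2 c)
    rw [← hT] at hcas
    rw [key, hcas]
    have hz := sum_conj_mem_center (Th T c)
    refine Submodule.smul_mem _ _ (Submodule.smul_mem _ _ ?_)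
    refine ⟨_, hz, ?_⟩
    rw [LinearMap.mulRight_apply, ((Subalgebra.mem_center_iff (R := ℂ)).mp hz (T 1)), mul_assoc, hee1]
  have hb : (Subalgebra.toSubmodule (Subalgebra.center ℂ (MonoidAlgebra ℂ G))).map (LinearMap.mulRight ℂ (T 1)) ≤
      (LinearMap.ker ((Km cs).map (eval (q : ℂ))).mulVecLin).map (ThL T) := by
    rintro _ ⟨z, hz, rfl⟩
    have hz' : ∀ x, x * z = z * x := fun x => (Subalgebra.mem_center_iff (R := ℂ)).mp hz x
    rw [LinearMap.mulRight_apply]
    obtain ⟨c, hc⟩ := exists_Th_eq h (z * T 1) (by rw [← hT, ← mul_assoc, hz', mul_assoc, hee1])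
      (by rw [← hT, mul_assoc, hee1])
    rw [← hT] at hc
    refine ⟨c, ?_, hc.symm⟩
    show ((Km cs).map (eval (q : ℂ))).mulVec c = 0
    rw [Km_mulVec_eq_zero_iff hF hli, ← hc]
    intro i
    rw [← mul_assoc, hz', mul_assoc, mul_assoc, hF.mul_one, hF.one_mul]
  have hc : ∀ c ∈ LinearMap.ker ((Km cs).map (eval (q : ℂ))).mulVecLin,
      ((Cm cs).map (eval (q : ℂ))).mulVecLin c = 0 → c = 0 := by
    intro c hcK hc0
    rw [LinearMap.mem_ker] at hcK
    have hcK' : ((Km cs).map (eval (q : ℂ))).mulVec c = 0 := hcK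
    rw [Km_mulVec_eq_zero_iff hF hli] at hcK'
    have hc0' : ((Cm cs).map (eval (q : ℂ))).mulVec c = 0 := hc0
    have hlist : ∀ ω : List ι, (ω.map fun i => T (cs.simple i)).prod * Th T c =
        Th T c * (ω.map fun i => T (cs.simple i)).prod := by
      intro ω
      induction ω with
      | nil => simp
      | cons i ω ih =>
        rw [List.map_cons, List.prod_cons, mul_assoc, ih, ← mul_assoc, hcK' i, mul_assoc]
    have hcomm : ∀ w, T w * Th T c = Th T c * T w := by
      intro w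
      calc T w * Th T c = ((red cs w).map fun i => T (cs.simple i)).prod * T 1 * Th T c := by
            rw [prod_mul_T_one hF (red_isReduced cs w), wordProd_red]
        _ = ((red cs w).map fun i => T (cs.simple i)).prod * Th T c := by rw [mul_assoc, hTh1]
        _ = Th T c * ((red cs w).map fun i => T (cs.simple i)).prod := hlist _
        _ = Th T c * (T 1 * ((red cs w).map fun i => T (cs.simple i)).prod) := by rw [← mul_assoc, hTh2]
        _ = Th T c * T w := by rw [T_one_mul_prod hF (red_isReduced cs w), wordProd_red]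
    have h0 := key c
    rw [hc0'] at h0
    have h00 : Th T (0 : W → ℂ) = 0 := by simp [Th]
    rw [h00] at h0
    have h1 := (smul_eq_zero.mp h0.symm).resolve_left (pow_ne_zero _ hq0)
    have h2 := eq_zero_of_casimir h (Th T c) (by rw [← hT]; exact hcomm) (by rw [← hT]; exact hTh1 c)
      (by rw [← hT]; exact h1)
    exact hinj (by show Th T c = ThL T 0; rw [h2, map_zero])
  obtain ⟨r1, r2⟩ := la_lemma (ThL T) hinj _ _ _ ha hb hc
  have rn := LinearMap.finrank_range_add_finrank_ker ((Km cs).map (eval (q : ℂ))).mulVecLin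
  rw [Module.finrank_fintype_fun_eq_card] at rn
  have hX := finrank_center_mul_eB Bs
  rw [← TT_one_eq h, ← hT] at hX
  have e1 : ((Cm cs).map (eval (q : ℂ))).rank = finrank ℂ (LinearMap.range ((Cm cs).map (eval (q : ℂ))).mulVecLin) := rfl
  have e2 : ((Km cs).map (eval (q : ℂ))).rank = finrank ℂ (LinearMap.range ((Km cs).map (eval (q : ℂ))).mulVecLin) := rfl
  rw [e1, e2, ← hX]
  constructor <;> omega

end Cfsg.Agent.Lib.Helper36.Hecke
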