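import Cfsg.Agent.Lib.Helper36.Hecke.A2
import Cfsg.Agent.Lib.Helper36.BNSt.Q1
import Cfsg.Agent.Lib.Helper36.BNSt.E
import Cfsg.Agent.Lib.Helper80.Constituent
import Cfsg.Agent.Lib.Helper3.Table

/-!
# Assembly: the number of constituents does not depend on the realised parameter
-/

set_option autoImplicit false

namespace Cfsg.Agent.Lib.Helper36.Hecke

open Polynomial Module Cfsg

variable {ι : Type*} {M : CoxeterMatrix ι} {W : Type*} [Group W] (cs : CoxeterSystem M W)

/-- the trivial realization, with parameter `1` -/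
theorem real_self : Real cs (⊥ : Subgroup W) id 1 where
  fib g g' := by
    constructor
    · intro h
      exact ⟨1, Subgroup.one_mem _, 1, Subgroup.one_mem _, by simpa using h.symm⟩
    · rintro ⟨b, hb, b', hb', e⟩
      rw [Subgroup.mem_bot] at hb hb'
      subst hb hb'
      simpa using e.symm
  surj := Function.surjective_id
  one := rfl
  inv _ := rfl
  up _ g h hg _ := by
    show g * h = _
    rw [show g = cs.simple _ from hg]
    rfl
  mem _ g h hg := by
    left
    show g * h = _
    rw [show g = cs.simple _ from hg]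
    rfl
  card i := by
    rw [Subgroup.card_bot, mul_one]
    haveI : Unique {g : W // id g = cs.simple i} := ⟨⟨⟨cs.simple i, rfl⟩⟩, fun x => Subtype.ext x.2⟩
    exact Nat.card_unique
  pos := Nat.one_pos

/-- every irreducible character is a constituent of the regular character -/
theorem card_constituents_bot [Finite W] :
    Nat.card {χ : IrrCharacter W // ∃ φ : W → ℂ, IsCharacter W φ ∧
      fixedPointCharacter (⊥ : Subgroup W) = (χ : W → ℂ) + φ} = Nat.card (ConjClasses W) := by
  classical
  haveI := Fintype.ofFinite W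
  rw [← Cfsg.Agent.Lib.Helper3.card_irrCharacter]
  apply Nat.card_congr
  refine Equiv.subtypeUnivEquiv (fun χ => ?_)
  apply Cfsg.Agent.Lib.Helper80.exists_add_of_constituent
    (Cfsg.Agent.Lib.Helper36.BNSt.isCharacter_fixedPointCharacter _) χ
  obtain ⟨n, ρ, hirr, hρ⟩ := χ.2
  rw [← Cfsg.Agent.Lib.Helper3.classInner_conj_symm, ← hρ,
    Cfsg.Agent.Lib.Helper36.BNSt.classInner_character_fixedPointCharacter]
  have htop : Cfsg.Agent.Lib.Helper36.BNSt.fixS ρ ⊥ = ⊤ := by
    rw [eq_top_iff]
    intro v _ z hz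
    rw [Subgroup.mem_bot] at hz
    subst hz
    simp
  rw [htop, finrank_top, map_natCast]
  haveI := hirr
  apply Nat.cast_ne_zero.mpr
  intro h0
  have hsub : Subsingleton (Fin n → ℂ) := Module.finrank_zero_iff.1 h0
  have : (⊥ : Subrepresentation ρ) = ⊤ := by
    apply Subrepresentation.toSubmodule_injective
    exact Subsingleton.elim _ _
  exact bot_ne_top this

theorem card_constituents_eq [Fintype W] [Fintype ι]
    (hinf : ∀ N : ℕ, ∃ q, N < q ∧ ∃ (G : Type) (_ : Group G) (_ : Fintype G) (Bs : Subgroup G) (δ : G → W),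
      Real cs Bs δ q)
    {G : Type*} [Group G] [Fintype G] {Bs : Subgroup G} {δ : G → W} {q : ℕ} (h : Real cs Bs δ q) :
    Nat.card {χ : IrrCharacter G // ∃ φ : G → ℂ, IsCharacter G φ ∧
      fixedPointCharacter Bs = (χ : G → ℂ) + φ} = Nat.card (ConjClasses W) := by
  classical
  let E : Set ℂ := {u | ((Cm cs).map (eval u)).rank + ((Km cs).map (eval u)).rank = Fintype.card W}
  have hE : E.Infinite := by
    have h1 : {q : ℕ | (q : ℂ) ∈ E}.Infinite := by
      rw [Set.infinite_iff_exists_gt]
      intro N
      obtain ⟨q', hq', G', _, _, Bs', δ', h'⟩ := hinf N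
      exact ⟨q', (real_rank h').1, hq'⟩
    exact (h1.image (Nat.cast_injective.injOn)).mono (by rintro _ ⟨q', hq', rfl⟩; exact hq')
  have hq : (q : ℂ) ∈ E := (real_rank h).1
  have h1 : ((1 : ℕ) : ℂ) ∈ E := (real_rank (real_self cs)).1
  have key := rank_eq_of_infinite (Cm cs) (Km cs) E hE (fun u hu => hu) _ hq _ h1
  have e1 := (real_rank h).2
  have e2 := (real_rank (real_self cs)).2
  rw [card_constituents_bot] at e2
  omega

end Cfsg.Agent.Lib.Helper36.Hecke
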