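import Cfsg.Agent.Lib.Helper36.Hecke.A3
import Cfsg.Agent.Lib.Helper18.ChevOrder
import Cfsg.Agent.S1039

/-!
# Chevalley glue: the Bruhat map of a Chevalley group
-/

set_option autoImplicit false

namespace Cfsg.Agent.Lib.Helper36.Hecke

open Cfsg Cfsg.Lie Cfsg.Agent.Lib.Helper6.BN Cfsg.Agent.Lib.Helper18

theorem chev_real {F : Type*} [Field F] [Fintype F]
    (dw : ChevalleyDatum × (Σ n : ℕ, CoxeterMatrix (Fin n)))
    (hdw : dw ∈ [(chevG2, ⟨2, CoxeterMatrix.G₂⟩), (chevB2, ⟨2, CoxeterMatrix.B 2⟩), (chevD4, ⟨4, coxeterD4⟩),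
      (chevF4, ⟨4, CoxeterMatrix.F₄⟩), (chevE6, ⟨6, CoxeterMatrix.E₆⟩), (chevE7, ⟨7, CoxeterMatrix.E₇⟩),
      (chevE8, ⟨8, CoxeterMatrix.E₈⟩)]) :
    ∃ δ : ↥(dw.1.group F) → dw.2.2.Group,
      Real dw.2.2.toCoxeterSystem ((dw.1.borelSubgroup F).subgroupOf (dw.1.group F)) δ (Fintype.card F) := by
  classical
  have hD : dw.1 ∈ [chevG2, chevB2, chevD4, chevF4, chevE6, chevE7, chevE8] := by
    simp only [List.mem_cons, List.not_mem_nil, or_false] at hdw ⊢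
    rcases hdw with rfl | rfl | rfl | rfl | rfl | rfl | rfl <;> simp
  have hr : dw.1.rank = dw.2.1 := by
    simp only [List.mem_cons, List.not_mem_nil, or_false] at hdw
    rcases hdw with rfl | rfl | rfl | rfl | rfl | rfl | rfl <;> rfl
  obtain ⟨φ, hφs, hφk, hφ⟩ := Cfsg.Agent.S1039.result (F := F) dw hdw
  let X := bnData_of_mem F hD
  have hS : ∀ s (hs : s ∈ X.P.S), ∃ i, (φ.comp X.ι) ⟨s, X.P.subset hs⟩ = dw.2.2.toCoxeterSystem.simple i := by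
    intro s hs
    have hs' := hs
    rw [X.hPS] at hs'
    obtain ⟨i, hi, e⟩ := hs'
    have hi' : i < dw.2.1 := by rw [← hr]; exact hi
    exact ⟨⟨i, hi'⟩, hφ ⟨i, hi'⟩ _ e⟩
  have hS' : ∀ i, ∃ s, ∃ hs : s ∈ X.P.S, (φ.comp X.ι) ⟨s, X.P.subset hs⟩ = dw.2.2.toCoxeterSystem.simple i := by
    intro i
    have hi : (i : ℕ) < dw.1.rank := by rw [hr]; exact i.2
    refine ⟨X.sG ⟨i, hi⟩, X.sG_mem_S _, hφ i _ ?_⟩
    exact X.hB.coe_ng _ _
  have hπ : Function.Surjective (φ.comp X.ι) := by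
    rw [← MonoidHom.range_eq_top, eq_top_iff, ← dw.2.2.toCoxeterSystem.subgroup_closure_range_simple,
      Subgroup.closure_le]
    rintro _ ⟨i, rfl⟩
    obtain ⟨s, hs, e⟩ := hS' i
    exact ⟨_, e⟩
  have hker : ∀ n : ↥X.P.N, (φ.comp X.ι) n = 1 ↔ (n : ↥(dw.1.group F)) ∈ X.P.B := by
    intro n
    have h1 : (φ.comp X.ι) n = 1 ↔ X.ι n ∈ φ.ker := Iff.rfl
    rw [h1, hφk, Subgroup.mem_subgroupOf, X.mem_B_iff]
    constructor
    · intro h
      exact Base.H_le_B h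
    · intro h
      have : ((n : ↥(dw.1.group F)) : GL dw.1.Idx F) ∈ dw.1.diagonalSubgroup F := by
        rw [← X.hB.B_inf_N X.hT.toTabs]
        exact ⟨h, X.coe_mem_N n⟩
      exact this
  have hq : ∀ s ∈ X.P.S, Nat.card (dc X.P s) = Fintype.card F * Nat.card X.P.B := by
    intro s hs
    obtain ⟨i, rfl⟩ := X.exists_of_mem_S hs
    exact X.card_dc_s i
  obtain ⟨δ, hδ⟩ := real_of_bn dw.2.2.toCoxeterSystem X.P (φ.comp X.ι) hπ hker hS hS' (Fintype.card F)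
    Fintype.card_pos hq
  rw [X.hPB] at hδ
  exact ⟨δ, hδ⟩

end Cfsg.Agent.Lib.Helper36.Hecke
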