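import Mathlib

/-!
# Iwahori-Hecke algebras of finite Coxeter groups: definitions

Generic structure matrices (polynomial in the parameter), families of elements of an algebra
satisfying the Iwahori relations, and the realization in the group algebra of a finite group `G`
with a "Bruhat map" `δ : G → W`.
-/

set_option autoImplicit false

namespace Cfsg.Agent.Lib.Helper36.Hecke

open Polynomial

variable {ι : Type*} {M : CoxeterMatrix ι} {W : Type*} [Group W] (cs : CoxeterSystem M W)

/-- left multiplication by `T_i` on coefficient vectors, parameter `u` -/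
noncomputable def Lop (u : ℂ) (i : ι) (c : W → ℂ) : W → ℂ := fun v =>
  if cs.length (cs.simple i * v) < cs.length v then c (cs.simple i * v) + (u - 1) * c v
  else u * c (cs.simple i * v)

/-- right multiplication by `T_i` on coefficient vectors, parameter `u` -/
noncomputable def Rop (u : ℂ) (i : ι) (c : W → ℂ) : W → ℂ := fun v =>
  if cs.length (v * cs.simple i) < cs.length v then c (v * cs.simple i) + (u - 1) * c v
  else u * c (v * cs.simple i)

/-- the matrix of `Lop`, with polynomial entries -/
noncomputable def Lm [DecidableEq W] (i : ι) : Matrix W W ℂ[X] := fun v w =>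
  if cs.length (cs.simple i * v) < cs.length v then
    (if w = cs.simple i * v then 1 else 0) + (X - 1) * (if w = v then 1 else 0)
  else X * (if w = cs.simple i * v then 1 else 0)

/-- the matrix of `Rop`, with polynomial entries -/
noncomputable def Rm [DecidableEq W] (i : ι) : Matrix W W ℂ[X] := fun v w =>
  if cs.length (v * cs.simple i) < cs.length v then
    (if w = v * cs.simple i then 1 else 0) + (X - 1) * (if w = v then 1 else 0)
  else X * (if w = v * cs.simple i then 1 else 0)

/-- a chosen reduced word -/
noncomputable def red (w : W) : List ι := (cs.exists_isReduced w).choose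

theorem red_isReduced (w : W) : cs.IsReduced (red cs w) := (cs.exists_isReduced w).choose_spec.1

theorem wordProd_red (w : W) : cs.wordProd (red cs w) = w := (cs.exists_isReduced w).choose_spec.2.symm

/-- a bound for the lengths -/
noncomputable def NN [Fintype W] : ℕ := ∑ v : W, cs.length v

theorem length_le_NN [Fintype W] (w : W) : cs.length w ≤ NN cs :=
  Finset.single_le_sum (f := fun v => cs.length v) (fun _ _ => Nat.zero_le _) (Finset.mem_univ w)

/-- the (renormalised) Casimir operator `a ↦ ∑ w, u ^ (N - ℓ w) T_w a T_{w⁻¹}`, as a polynomial matrix -/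
noncomputable def Cm [Fintype W] [DecidableEq W] : Matrix W W ℂ[X] :=
  ∑ w : W, (X : ℂ[X]) ^ (NN cs - cs.length w) •
    (((red cs w).map (Lm cs)).prod * ((red cs w).map (Rm cs)).prod)

/-- the commutator matrix: its kernel is the centre -/
noncomputable def Km [DecidableEq W] : Matrix (ι × W) W ℂ[X] := fun p w => Lm cs p.1 p.2 w - Rm cs p.1 p.2 w

/-- a family `T : W → A` satisfying the Iwahori relations with parameter `u` (`T 1` is only a local unit) -/
structure Fam {A : Type*} [Ring A] [Algebra ℂ A] (T : W → A) (u : ℂ) : Prop where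
  one_mul : ∀ w, T 1 * T w = T w
  mul_one : ∀ w, T w * T 1 = T w
  left_up : ∀ i w, cs.length w < cs.length (cs.simple i * w) → T (cs.simple i) * T w = T (cs.simple i * w)
  right_up : ∀ i w, cs.length w < cs.length (w * cs.simple i) → T w * T (cs.simple i) = T (w * cs.simple i)
  sq : ∀ i, T (cs.simple i) * T (cs.simple i) = u • T 1 + (u - 1) • T (cs.simple i)

/-- the linear combination with coefficient vector `c` -/
noncomputable def Th [Fintype W] {A : Type*} [Ring A] [Algebra ℂ A] (T : W → A) (c : W → ℂ) : A := ∑ w : W, c w • T w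

/-- a "Bruhat map" `δ : G → W` with all parameters equal to `q` -/
structure Real {G : Type*} [Group G] (Bs : Subgroup G) (δ : G → W) (q : ℕ) : Prop where
  fib : ∀ g g', δ g = δ g' ↔ ∃ b ∈ Bs, ∃ b' ∈ Bs, g' = b * g * b'
  surj : Function.Surjective δ
  one : δ 1 = 1
  inv : ∀ g, δ g⁻¹ = (δ g)⁻¹
  up : ∀ i g h, δ g = cs.simple i → cs.length (δ h) < cs.length (cs.simple i * δ h) →
    δ (g * h) = cs.simple i * δ h
  mem : ∀ i g h, δ g = cs.simple i → δ (g * h) = cs.simple i * δ h ∨ δ (g * h) = δ h
  card : ∀ i, Nat.card {g : G // δ g = cs.simple i} = q * Nat.card Bs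
  pos : 0 < q

/-- the standard basis element `|B|⁻¹ ∑_{δ g = w} g` of the Hecke algebra inside the group algebra -/
noncomputable def TT {G : Type*} [Group G] [Fintype G] [DecidableEq W] (Bs : Subgroup G) (δ : G → W) (w : W) :
    MonoidAlgebra ℂ G :=
  (Nat.card Bs : ℂ)⁻¹ • ∑ g : G, if δ g = w then MonoidAlgebra.single g (1 : ℂ) else 0

/-- the idempotent `|B|⁻¹ ∑_{b ∈ B} b` -/
noncomputable def eB {G : Type*} [Group G] [Fintype G] (Bs : Subgroup G) [DecidablePred (· ∈ Bs)] :
    MonoidAlgebra ℂ G :=
  (Nat.card Bs : ℂ)⁻¹ • ∑ g : G, if g ∈ Bs then MonoidAlgebra.single g (1 : ℂ) else 0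

end Cfsg.Agent.Lib.Helper36.Hecke
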