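import Cfsg.Agent.Lib.Helper36.Hecke.Defs

set_option autoImplicit false
set_option linter.unusedSectionVars false

namespace Cfsg.Agent.Lib.Helper36.Hecke

open Polynomial

variable {ι : Type*} {M : CoxeterMatrix ι} {W : Type*} [Group W] {cs : CoxeterSystem M W}
variable {G : Type*} [Group G] [Fintype G] [DecidableEq W] {Bs : Subgroup G} {δ : G → W} {q : ℕ}

namespace G1b

/-- the unnormalised fibre sum -/
noncomputable def U (δ : G → W) (w : W) : MonoidAlgebra ℂ G :=
  ∑ g : G, if δ g = w then MonoidAlgebra.single g (1 : ℂ) else 0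

theorem TT_eq (Bs : Subgroup G) (δ : G → W) (w : W) :
    TT Bs δ w = (Nat.card Bs : ℂ)⁻¹ • U δ w := rfl

theorem U_coeff (δ : G → W) (w : W) (x : G) : (U δ w).coeff x = if δ x = w then 1 else 0 := by
  classical
  unfold U
  rw [MonoidAlgebra.coeff_sum, Finsupp.finsetSum_apply]
  have : ∀ g : G, (if δ g = w then MonoidAlgebra.single g (1 : ℂ) else 0).coeff x =
      if g = x then (if δ x = w then 1 else 0) else 0 := by
    intro g
    by_cases hg : g = x
    · subst hg
      by_cases h1 : δ g = w <;> simp [h1]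
    · by_cases h1 : δ g = w <;> simp [h1, hg]
  simp only [this]
  simp

theorem U_mul_U_coeff (δ : G → W) (s w : W) (x : G) :
    (U δ s * U δ w).coeff x = (Nat.card {g : G // δ g = s ∧ δ (g⁻¹ * x) = w} : ℂ) := by
  classical
  conv_lhs => rw [U]
  rw [Finset.sum_mul, MonoidAlgebra.coeff_sum, Finsupp.finsetSum_apply]
  have : ∀ g : G, ((if δ g = s then MonoidAlgebra.single g (1 : ℂ) else 0) * U δ w).coeff x =
      if (δ g = s ∧ δ (g⁻¹ * x) = w) then 1 else 0 := by
    intro g
    by_cases h1 : δ g = s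
    · simp only [h1, if_true, true_and]
      rw [MonoidAlgebra.coeff_single_mul_apply, U_coeff, one_mul]
    · simp [h1]
  simp only [this]
  rw [Finset.sum_boole, Nat.card_eq_fintype_card, Fintype.card_subtype]

theorem delta_mul_right (h : Real cs Bs δ q) (g : G) {b : G} (hb : b ∈ Bs) : δ (g * b) = δ g :=
  ((h.fib g (g * b)).mpr ⟨1, Bs.one_mem, b, hb, by simp⟩).symm

theorem delta_mul_left (h : Real cs Bs δ q) (g : G) {b : G} (hb : b ∈ Bs) : δ (b * g) = δ g :=
  ((h.fib g (b * g)).mpr ⟨b, hb, 1, Bs.one_mem, by simp⟩).symm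

theorem delta_eq_one_iff (h : Real cs Bs δ q) (g : G) : δ g = 1 ↔ g ∈ Bs := by
  constructor
  · intro hg
    obtain ⟨b, hb, b', hb', rfl⟩ := (h.fib 1 g).mp (by rw [h.one, hg])
    exact Bs.mul_mem (Bs.mul_mem hb Bs.one_mem) hb'
  · intro hg
    have := delta_mul_right h 1 hg
    rwa [one_mul, h.one] at this

theorem card_ne_zero (Bs : Subgroup G) : (Nat.card Bs : ℂ) ≠ 0 := by
  have : Nat.card Bs ≠ 0 := Nat.card_pos.ne'
  exact_mod_cast this

/-- the count in the length-increasing case -/
theorem count_up (h : Real cs Bs δ q) (i : ι) (w : W)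
    (hw : cs.length w < cs.length (cs.simple i * w)) (x : G) :
    Nat.card {g : G // δ g = cs.simple i ∧ δ (g⁻¹ * x) = w} =
      if δ x = cs.simple i * w then Nat.card Bs else 0 := by
  by_cases hx : δ x = cs.simple i * w
  · rw [if_pos hx]
    obtain ⟨g0, hg0⟩ := h.surj (cs.simple i)
    obtain ⟨h0, hh0⟩ := h.surj w
    have h1 : δ (g0 * h0) = cs.simple i * w := by
      have := h.up i g0 h0 hg0 (by rw [hh0]; exact hw)
      rwa [hh0] at this
    obtain ⟨b, hb, b', hb', hxe⟩ := (h.fib (g0 * h0) x).mp (by rw [h1, hx])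
    set g1 := b * g0 with hg1
    set h1' := h0 * b' with hh1
    have hxe' : x = g1 * h1' := by rw [hxe, hg1, hh1]; group
    have hdg1 : δ g1 = cs.simple i := by rw [hg1, delta_mul_left h _ hb, hg0]
    have hdh1 : δ h1' = w := by rw [hh1, delta_mul_right h _ hb', hh0]
    symm
    refine Nat.card_congr
      { toFun := fun c => ⟨g1 * c, ?_, ?_⟩
        invFun := fun g => ⟨g1⁻¹ * g, ?_⟩
        left_inv := ?_
        right_inv := ?_ }
    · rw [delta_mul_right h _ c.2, hdg1]
    · have : (g1 * (c : G))⁻¹ * x = (c : G)⁻¹ * h1' := by rw [hxe']; group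
      rw [this, delta_mul_left h _ (Bs.inv_mem c.2), hdh1]
    · obtain ⟨g, hg, hgx⟩ := g
      show g1⁻¹ * g ∈ Bs
      have hk : δ (g⁻¹ * g1) = 1 := by
        have hginv : δ g⁻¹ = cs.simple i := by rw [h.inv, hg, cs.inv_simple]
        rcases h.mem i g⁻¹ g1 hginv with h2 | h2
        · rw [h2, hdg1, cs.simple_mul_simple_self]
        · exfalso
          rw [hdg1] at h2
          have h3 := h.up i (g⁻¹ * g1) h1' h2 (by rw [hdh1]; exact hw)
          have h4 : g⁻¹ * g1 * h1' = g⁻¹ * x := by rw [hxe']; group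
          rw [h4, hgx, hdh1] at h3
          rw [← h3] at hw
          exact lt_irrefl _ hw
      have := Bs.inv_mem ((delta_eq_one_iff h _).mp hk)
      simpa using this
    · intro c
      ext
      simp
    · intro g
      ext
      simp
  · rw [if_neg hx]
    rw [Nat.card_eq_zero]
    left
    constructor
    rintro ⟨g, hg, hgx⟩
    apply hx
    have := h.up i g (g⁻¹ * x) hg (by rw [hgx]; exact hw)
    rwa [mul_inv_cancel_left, hgx] at this

end G1b

open G1b in
theorem TT_left_up (h : Real cs Bs δ q) (i : ι) (w : W) (hw : cs.length w < cs.length (cs.simple i * w)) :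
    TT Bs δ (cs.simple i) * TT Bs δ w = TT Bs δ (cs.simple i * w) := by
  have key : U δ (cs.simple i) * U δ w = (Nat.card Bs : ℂ) • U δ (cs.simple i * w) := by
    apply MonoidAlgebra.ext
    ext x
    rw [U_mul_U_coeff, count_up h i w hw, MonoidAlgebra.coeff_smul_apply, U_coeff]
    by_cases hx : δ x = cs.simple i * w <;> simp [hx]
  rw [TT_eq, TT_eq, TT_eq, smul_mul_smul_comm, key, smul_smul]
  congr 1
  have := card_ne_zero Bs
  field_simp

end Cfsg.Agent.Lib.Helper36.Hecke
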